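/-
Characters of the root lattice are characters as far as the chains of roots are concerned, given a check on the tables.
-/
import Cfsg.Agent.Lib.ChevAut.Form

set_option autoImplicit false

namespace Cfsg.Agent.Lib.Chev

open Cfsg.Lie

/-- Consecutive terms of a chain differ by the root. -/
def stepL (D : ChevalleyDatum) (r : ℕ) : List (ℕ × ℤ) → Bool
  | a :: b :: rest => (D.chainRoot r a.1 1 == some b.1) && stepL D r (b :: rest)
  | _ => true

/-- The check on all chains. -/
def chkStep (D : ChevalleyDatum) : Bool :=
  (List.range D.nroots).all fun r => (D.chain.getD r #[]).toList.all fun e => stepL D r e.2.toList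

section

variable {F : Type*} [Field F] {D : ChevalleyDatum}

lemma stepL_entry (h : chkStep D = true) {r : ℕ} (hr : r < D.nroots) (s : ℕ) : stepL D r (D.chainEntry r s) = true := by
  have h1 := List.all_eq_true.1 h r (List.mem_range.2 hr)
  unfold ChevalleyDatum.chainEntry
  split
  · rfl
  · rename_i e he
    exact List.all_eq_true.1 h1 e (List.mem_of_find?_eq_some he)

lemma char_chain_aux {χ : ℕ → Fˣ} (hχ : D.IsRootCharacter χ) {r : ℕ} (hr : r < D.nroots) (x : Fˣ) :
    ∀ (L : List (ℕ × ℤ)) (n₀ : ℕ), stepL D r L = true → (∀ e ∈ L, e.1 < D.nroots) →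
      (∀ a ∈ L.head?, χ a.1 = x * χ r ^ (n₀ + 1)) →
      ∀ q ∈ L.zipIdx n₀, χ q.1.1 = x * χ r ^ (q.2 + 1) := by
  intro L
  induction L with
  | nil => simp
  | cons a L ih =>
    intro n₀ hs hlt hh q hq
    rw [List.zipIdx_cons, List.mem_cons] at hq
    rcases hq with rfl | hq
    · exact hh a (by simp)
    · cases L with
      | nil => simp at hq
      | cons b L' =>
        simp only [stepL, Bool.and_eq_true, beq_iff_eq] at hs
        refine ih (n₀ + 1) hs.2 (fun e he => hlt e (List.mem_cons_of_mem _ he)) ?_ q hq
        intro c hc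
        simp only [List.head?_cons, Option.mem_def, Option.some.injEq] at hc
        subst hc
        rw [hχ.2 r a.1 b.1 hr (hlt a (by simp)) hs.1, hh a (by simp), pow_succ (χ r) (n₀ + 1)]
        simp only [mul_comm, mul_left_comm, mul_assoc]

/-- A character of the root lattice is one for the chains. -/
theorem isChar_of_root (hS : Sane D) (hc : chkStep D = true) {χ : ℕ → Fˣ} (hχ : D.IsRootCharacter χ) :
    IsChar D (fun r => (χ r : F)) where
  neg := fun r hr => by
    show (χ (D.neg r) : F) * (χ r : F) = 1
    rw [hχ.1 r hr, ← Units.val_mul, inv_mul_cancel, Units.val_one]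
  chain := fun r s hr hs q hq => by
    show (χ q.1.1 : F) = (χ s : F) * (χ r : F) ^ (q.2 + 1)
    have h1 := stepL_entry hc hr s
    have h2 : ∀ e ∈ D.chainEntry r s, e.1 < D.nroots := hS.targets r s hr hs
    have key := char_chain_aux hχ hr (χ s) (D.chainEntry r s) 0 h1 h2 (by
      intro a ha
      have h3 : D.chainRoot r s 1 = some a.1 := by
        unfold ChevalleyDatum.chainRoot
        simp only [Nat.sub_self]
        rw [List.head?_eq_getElem?] at ha
        simp only [Option.mem_def] at ha
        rw [ha]
        rfl
      rw [hχ.2 r s a.1 hr hs h3]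
      simp [mul_comm]) q hq
    rw [key, Units.val_mul, Units.val_pow_eq_pow_val]

end

end Cfsg.Agent.Lib.Chev
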