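/-
The group of standard automorphisms of a Chevalley group: it covers the outer automorphism group, with kernel the
diagonal subgroup.
-/
import Cfsg.Agent.Lib.ChevAut.DiagMem
import Cfsg.Prelude.Def_KGroupFacts

set_option autoImplicit false

namespace Cfsg.Agent.Lib.Chev

open Cfsg.Lie

section

variable {F : Type*} [Field F] {D : ChevalleyDatum} {T : Tbl}

/-- The group of standard automorphisms. -/
def stdGroup (D : ChevalleyDatum) (F : Type*) [Field F] : Subgroup (MulAut ↥(D.group F)) where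
  carrier := {θ | IsStd θ}
  one_mem' := ⟨Subgroup.map_id _, Subgroup.map_id _⟩
  mul_mem' := by
    rintro θ θ' h h'
    refine ⟨?_, ?_⟩
    · show (gU D F).map (θ'.trans θ).toMonoidHom = _
      rw [map_trans_eq, h'.U, h.U]
    · show (gV D F).map (θ'.trans θ).toMonoidHom = _
      rw [map_trans_eq, h'.V, h.V]
  inv_mem' := fun h => h.symm

lemma mem_stdGroup {θ : MulAut ↥(D.group F)} : θ ∈ stdGroup D F ↔ IsStd θ := Iff.rfl

/-- Conjugation preserving a subgroup. -/
lemma map_conj_of_normalizer {K : Subgroup (GL D.Idx F)} {x : ↥(D.group F)}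
    (hx : (x : GL D.Idx F) ∈ Subgroup.normalizer (K : Set (GL D.Idx F))) :
    (K.subgroupOf (D.group F)).map (MulAut.conj x).toMonoidHom = K.subgroupOf (D.group F) := by
  ext g
  simp only [Subgroup.mem_map, Subgroup.mem_subgroupOf]
  constructor
  · rintro ⟨a, ha, rfl⟩
    exact (Subgroup.mem_normalizer_iff.1 hx a).1 ha
  · intro hg
    refine ⟨x⁻¹ * g * x, ?_, ?_⟩
    · have h := Subgroup.inv_mem _ hx
      have := (Subgroup.mem_normalizer_iff.1 h g).1 hg
      simpa using this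
    · show x * (x⁻¹ * g * x) * x⁻¹ = g
      group

/-- A consequence of an element's normalising a subgroup. -/
lemma conj_inv_mem_of_map {K : Subgroup (GL D.Idx F)} (hK : K ≤ D.group F) {x : ↥(D.group F)}
    (hx : (K.subgroupOf (D.group F)).map (MulAut.conj x).toMonoidHom = K.subgroupOf (D.group F))
    {u : GL D.Idx F} (hu : u ∈ K) : (x : GL D.Idx F)⁻¹ * u * (x : GL D.Idx F) ∈ K := by
  have h1 : (⟨u, hK hu⟩ : ↥(D.group F)) ∈ K.subgroupOf (D.group F) := Subgroup.mem_subgroupOf.2 hu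
  rw [← hx] at h1
  obtain ⟨a, ha, e⟩ := h1
  have e1 : (x : GL D.Idx F) * (a : GL D.Idx F) * (x : GL D.Idx F)⁻¹ = u := congrArg Subtype.val e
  have e2 : (x : GL D.Idx F)⁻¹ * u * (x : GL D.Idx F) = a := by
    rw [← e1]
    group
  rw [e2]
  exact Subgroup.mem_subgroupOf.1 ha

namespace Tbl.Good3

variable (hG : T.Good3 D)
include hG

/-- Conjugation by an element of `H` is standard. -/
lemma isStd_conj_of_H {x : ↥(D.group F)} (hx : (x : GL D.Idx F) ∈ D.diagonalSubgroup F) : IsStd (MulAut.conj x) :=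
  ⟨map_conj_of_normalizer (hG.H_le_normalizer_U hx), map_conj_of_normalizer (hG.H_le_normalizer_V hx)⟩

/-- A standard inner automorphism comes from an element of `H`. -/
theorem mem_H_of_isStd_conj {x : ↥(D.group F)} (h : IsStd (MulAut.conj x)) : (x : GL D.Idx F) ∈ D.diagonalSubgroup F := by
  have hB : (x : GL D.Idx F) ∈ D.borelSubgroup F :=
    hG.mem_B_of_conj x.2 fun u hu =>
      Tbl.Good2.le_borel_U (conj_inv_mem_of_map hG.U_le_group h.U hu)
  obtain ⟨n, hn, hnU⟩ := hG.exists_n0 (F := F)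
  have hnG := hG.N_le_group hn
  have hnV : ∀ u ∈ D.posUnipotent F, n * u * n⁻¹ ∈ D.negUnipotent F := fun u hu => by
    rw [← hnU]
    exact ⟨u, hu, rfl⟩
  have hnU' : ∀ v ∈ D.negUnipotent F, n⁻¹ * v * n ∈ D.posUnipotent F := fun v hv => by
    rw [← hnU] at hv
    obtain ⟨a, ha, rfl⟩ := hv
    have e : n⁻¹ * (MulAut.conj n).toMonoidHom a * n = a := by
      show n⁻¹ * (n * a * n⁻¹) * n = a
      group
    rw [e]
    exact ha
  have hy : n⁻¹ * (x : GL D.Idx F) * n ∈ D.borelSubgroup F := by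
    refine hG.mem_B_of_conj (Subgroup.mul_mem _ (Subgroup.mul_mem _ (Subgroup.inv_mem _ hnG) x.2) hnG) fun u hu => ?_
    have h1 := conj_inv_mem_of_map hG.V_le_group h.V (hnV u hu)
    have h2 := hnU' _ h1
    have e : (n⁻¹ * (x : GL D.Idx F) * n)⁻¹ * u * (n⁻¹ * (x : GL D.Idx F) * n) =
        n⁻¹ * ((x : GL D.Idx F)⁻¹ * (n * u * n⁻¹) * (x : GL D.Idx F)) * n := by group
    rw [e]
    exact Tbl.Good2.le_borel_U h2
  obtain ⟨u, hu, k, hk, e⟩ := hG.mem_borel hy
  have hxe : (x : GL D.Idx F) = (n * u * n⁻¹) * (n * k * n⁻¹) := by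
    have : (x : GL D.Idx F) = n * (n⁻¹ * (x : GL D.Idx F) * n) * n⁻¹ := by group
    rw [this, e]
    group
  have hV : (x : GL D.Idx F) ∈ D.negUnipotent F ⊔ D.diagonalSubgroup F := by
    rw [hxe]
    exact Subgroup.mul_mem _ (Subgroup.mem_sup_left (hnV u hu)) (Subgroup.mem_sup_right (hG.N_conj_H hn hk))
  rw [← hG.borel_inf_negBorel]
  exact ⟨hB, hV⟩

/-- An element of `H` centralising the group is trivial. -/
lemma eq_one_of_conj_eq {x : ↥(D.group F)} (hx : (x : GL D.Idx F) ∈ D.diagonalSubgroup F)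
    (h : MulAut.conj x = 1) : x = 1 := by
  apply Subtype.ext
  refine hG.H_eq_one_of_comm hx fun r hr => ?_
  have e := DFunLike.congr_fun h (hG.xG hr 1)
  have e1 : x * hG.xG hr 1 * x⁻¹ = hG.xG hr 1 := e
  have e2 := congrArg Subtype.val (mul_inv_eq_iff_eq_mul.1 e1)
  exact e2

/-- The count. -/
theorem card_stdGroup [Finite F] :
    Nat.card (stdGroup D F) = Nat.card (Cfsg.Out ↥(D.group F)) * Nat.card (gH D F) := by
  let φ : stdGroup D F →* Cfsg.Out ↥(D.group F) :=
    (QuotientGroup.mk' (Cfsg.Inn ↥(D.group F))).comp (stdGroup D F).subtype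
  have hφ : Function.Surjective φ := by
    intro q
    obtain ⟨θ, rfl⟩ := QuotientGroup.mk_surjective q
    obtain ⟨x, θ', hs, hx⟩ := exists_std hG θ
    refine ⟨⟨θ', hs⟩, ?_⟩
    have e : θ = MulAut.conj x * θ' := by
      ext y
      rw [hx]
      rfl
    show (QuotientGroup.mk θ' : Cfsg.Out ↥(D.group F)) = _
    have e0 : (QuotientGroup.mk (MulAut.conj x) : Cfsg.Out ↥(D.group F)) = 1 :=
      (QuotientGroup.eq_one_iff _).2 (MonoidHom.mem_range.2 ⟨x, rfl⟩)
    rw [e, QuotientGroup.mk_mul, e0, one_mul]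
  have h1 := Subgroup.card_eq_card_quotient_mul_card_subgroup φ.ker
  rw [Nat.card_congr (QuotientGroup.quotientKerEquivOfSurjective φ hφ).toEquiv] at h1
  rw [h1]
  congr 1
  symm
  refine Nat.card_congr (Equiv.ofBijective (fun x : gH D F => (⟨⟨MulAut.conj (x : ↥(D.group F)),
    hG.isStd_conj_of_H (Subgroup.mem_subgroupOf.1 x.2)⟩, ?_⟩ : φ.ker)) ⟨?_, ?_⟩)
  · rw [MonoidHom.mem_ker]
    exact (QuotientGroup.eq_one_iff _).2 (MonoidHom.mem_range.2 ⟨_, rfl⟩)
  · intro x y e
    have e1 : MulAut.conj (x : ↥(D.group F)) = MulAut.conj (y : ↥(D.group F)) :=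
      congrArg (fun z : φ.ker => ((z : stdGroup D F) : MulAut ↥(D.group F))) e
    have e2 : MulAut.conj ((x : ↥(D.group F))⁻¹ * y) = 1 := by
      rw [map_mul, map_inv, e1]
      simp
    have h3 : (((x : ↥(D.group F))⁻¹ * y : ↥(D.group F)) : GL D.Idx F) ∈ D.diagonalSubgroup F :=
      Subgroup.mem_subgroupOf.1 (Subgroup.mul_mem _ (Subgroup.inv_mem _ x.2) y.2)
    have h4 := hG.eq_one_of_conj_eq h3 e2
    apply Subtype.ext
    exact (inv_mul_eq_one.1 h4)
  · rintro ⟨⟨θ, hs⟩, hk⟩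
    have h3 : θ ∈ Cfsg.Inn ↥(D.group F) := by
      have : (QuotientGroup.mk θ : Cfsg.Out ↥(D.group F)) = 1 := hk
      exact (QuotientGroup.eq_one_iff _).1 this
    obtain ⟨x, rfl⟩ := h3
    exact ⟨⟨x, Subgroup.mem_subgroupOf.2 (hG.mem_H_of_isStd_conj hs)⟩, rfl⟩

end Tbl.Good3

end

end Cfsg.Agent.Lib.Chev
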