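/-
The group of standard automorphisms of a Chevalley group, counted by its parameters: a permutation of the nodes, a
scalar at each node, and a field automorphism.
-/
import Cfsg.Agent.Lib.ChevAut.StdGroup
import Cfsg.Agent.Lib.ChevAut.FieldCard

set_option autoImplicit false

namespace Cfsg.Agent.Lib.Chev

open Cfsg.Lie

section

variable {F : Type*} [Field F] {D : ChevalleyDatum} {T : Tbl}

namespace Tbl.Good2

variable (hG : T.Good2 D)
include hG

/-- `U` is generated by the positive root elements. -/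
lemma gU_le (K : Subgroup ↥(D.group F))
    (h : ∀ r, r < D.nroots → D.nroots / 2 ≤ r → ∀ t : F, hG.xT r t ∈ K) : gU D F ≤ K := by
  have hmem : D.posUnipotent F ≤ K.map (D.group F).subtype := by
    refine (Subgroup.closure_le _).2 ?_
    rintro g ⟨r, t, hr, hg⟩
    refine ⟨hG.xT r t, h r hr.1 ((hG.isPos_iff hr.1).1 hr) t, ?_⟩
    apply Units.ext
    show ((hG.xT r t : ↥(D.group F)) : GL D.Idx F).val = g.val
    rw [hG.xT_coe, hg]
  rintro ⟨y, hy⟩ hyU
  obtain ⟨⟨z, hz⟩, hzK, e⟩ := hmem (Subgroup.mem_subgroupOf.1 hyU)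
  have e' : z = y := e
  subst e'
  exact hzK

/-- `V` is generated by the negative root elements. -/
lemma gV_le (K : Subgroup ↥(D.group F))
    (h : ∀ r, r < D.nroots / 2 → ∀ t : F, hG.xT r t ∈ K) : gV D F ≤ K := by
  have hmem : D.negUnipotent F ≤ K.map (D.group F).subtype := by
    refine (Subgroup.closure_le _).2 ?_
    rintro g ⟨r, t, hr, hg⟩
    refine ⟨hG.xT r t, h r ((hG.isNeg_iff hr.1).1 hr) t, ?_⟩
    apply Units.ext
    show ((hG.xT r t : ↥(D.group F)) : GL D.Idx F).val = g.val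
    rw [hG.xT_coe, hg]
  rintro ⟨y, hy⟩ hyU
  obtain ⟨⟨z, hz⟩, hzK, e⟩ := hmem (Subgroup.mem_subgroupOf.1 hyU)
  have e' : z = y := e
  subst e'
  exact hzK

lemma xT_mem_gU {r : ℕ} (hr : r < D.nroots) (hp : D.nroots / 2 ≤ r) (t : F) : hG.xT r t ∈ gU D F := by
  rw [hG.xT_of_lt hr]
  exact Subgroup.mem_subgroupOf.2 (hG.xU_mem_U hr hp t)

lemma xT_mem_gV {r : ℕ} (hr : r < D.nroots) (hp : r < D.nroots / 2) (t : F) : hG.xT r t ∈ gV D F := by
  rw [hG.xT_of_lt hr]
  exact Subgroup.mem_subgroupOf.2 (hG.xU_mem_V hr hp t)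

/-- A criterion for being standard. -/
theorem isStd_of {θ : ↥(D.group F) ≃* ↥(D.group F)}
    (hU : ∀ r, r < D.nroots → D.nroots / 2 ≤ r → ∀ t : F, θ (hG.xT r t) ∈ gU D F)
    (hV : ∀ r, r < D.nroots / 2 → ∀ t : F, θ (hG.xT r t) ∈ gV D F)
    (hU' : ∀ r, r < D.nroots → D.nroots / 2 ≤ r → ∀ t : F, θ.symm (hG.xT r t) ∈ gU D F)
    (hV' : ∀ r, r < D.nroots / 2 → ∀ t : F, θ.symm (hG.xT r t) ∈ gV D F) : IsStd θ := by
  refine ⟨le_antisymm ?_ ?_, le_antisymm ?_ ?_⟩
  · rw [Subgroup.map_le_iff_le_comap]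
    exact hG.gU_le _ hU
  · have h : gU D F ≤ (gU D F).comap θ.symm.toMonoidHom := hG.gU_le _ hU'
    intro g hg
    exact ⟨θ.symm g, h hg, θ.apply_symm_apply g⟩
  · rw [Subgroup.map_le_iff_le_comap]
    exact hG.gV_le _ hV
  · have h : gV D F ≤ (gV D F).comap θ.symm.toMonoidHom := hG.gV_le _ hV'
    intro g hg
    exact ⟨θ.symm g, h hg, θ.apply_symm_apply g⟩

/-- Automorphisms scaling root elements are standard. -/
theorem isStd_of_scale {θ : ↥(D.group F) ≃* ↥(D.group F)} (s : ℕ → F → F) (hs : ∀ r, Function.Surjective (s r))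
    (h : ∀ r, r < D.nroots → ∀ t : F, θ (hG.xT r t) = hG.xT r (s r t)) : IsStd θ := by
  have hinv : ∀ r, r < D.nroots → ∀ t : F, ∃ u, θ.symm (hG.xT r t) = hG.xT r u := by
    intro r hr t
    obtain ⟨u, rfl⟩ := hs r t
    exact ⟨u, by rw [← h r hr, MulEquiv.symm_apply_apply]⟩
  have h2 : ∀ {r : ℕ}, r < D.nroots / 2 → r < D.nroots := fun hr => by
    have := hG.even_n
    omega
  refine hG.isStd_of ?_ ?_ ?_ ?_
  · intro r hr hp t
    rw [h r hr]
    exact hG.xT_mem_gU hr hp _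
  · intro r hr t
    rw [h r (h2 hr)]
    exact hG.xT_mem_gV (h2 hr) hr _
  · intro r hr hp t
    obtain ⟨u, hu⟩ := hinv r hr t
    rw [hu]
    exact hG.xT_mem_gU hr hp _
  · intro r hr t
    obtain ⟨u, hu⟩ := hinv r (h2 hr) t
    rw [hu]
    exact hG.xT_mem_gV (h2 hr) hr _

/-- The form of a graph automorphism on fundamental root elements. -/
def GraphForm (π : Equiv.Perm (Fin D.rank)) (g : ↥(D.group F) ≃* ↥(D.group F)) : Prop :=
  ∀ (i : Fin D.rank) (t : F), g (hG.xT (D.simple i) t) = hG.xT (D.simple (π i)) (t ^ D.graphExp (ringChar F) i (π i)) ∧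
    g (hG.xT (D.neg (D.simple i)) t) = hG.xT (D.neg (D.simple (π i))) (t ^ D.graphExp (ringChar F) i (π i))

/-- The permutations of the nodes which carry a standard graph automorphism. -/
def Adm (F : Type*) [Field F] (π : Equiv.Perm (Fin D.rank)) : Prop :=
  ∃ g : ↥(D.group F) ≃* ↥(D.group F), IsStd g ∧ hG.GraphForm π g

/-- The form of a standard automorphism with its parameters. -/
def Rep (θ : ↥(D.group F) ≃* ↥(D.group F)) (π : Equiv.Perm (Fin D.rank)) (c : Fin D.rank → Fˣ) (σ : F ≃+* F) : Prop :=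
  ∀ (i : Fin D.rank) (t : F),
    θ (hG.xT (D.simple i) t) = hG.xT (D.simple (π i)) ((c (π i) : F) * σ t ^ D.graphExp (ringChar F) i (π i)) ∧
    θ (hG.xT (D.neg (D.simple i)) t) =
      hG.xT (D.neg (D.simple (π i))) (((c (π i))⁻¹ : Fˣ) * σ t ^ D.graphExp (ringChar F) i (π i))

/-- Parameters determine the automorphism. -/
lemma Rep.unique {θ θ' : ↥(D.group F) ≃* ↥(D.group F)} {π : Equiv.Perm (Fin D.rank)} {c : Fin D.rank → Fˣ} {σ : F ≃+* F}
    (h : hG.Rep θ π c σ) (h' : hG.Rep θ' π c σ) : θ = θ' := by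
  have := hG.hom_ext θ.toMonoidHom θ'.toMonoidHom (fun i t => by
      show θ _ = θ' _
      rw [(h i t).1, (h' i t).1]) (fun i t => by
      show θ _ = θ' _
      rw [(h i t).2, (h' i t).2])
  apply MulEquiv.ext
  intro y
  exact DFunLike.congr_fun this y

omit hG in
/-- There is a node with exponent one. -/
lemma exists_exp_one (h0 : 0 < D.rank) (c : ℕ) (π : Equiv.Perm (Fin D.rank)) : ∃ i : Fin D.rank, D.graphExp c i (π i) = 1 := by
  by_cases h : ∃ i : Fin D.rank, D.isLong (D.simple i) = true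
  · obtain ⟨i, hi⟩ := h
    refine ⟨i, ?_⟩
    unfold ChevalleyDatum.graphExp
    rw [if_neg]
    simp [hi]
  · push_neg at h
    refine ⟨⟨0, h0⟩, ?_⟩
    unfold ChevalleyDatum.graphExp
    rw [if_neg]
    simp [h]

/-- The automorphism determines the parameters. -/
lemma Rep.params {θ : ↥(D.group F) ≃* ↥(D.group F)} {π π' : Equiv.Perm (Fin D.rank)} {c c' : Fin D.rank → Fˣ}
    {σ σ' : F ≃+* F} (h0 : 0 < D.rank) (h : hG.Rep θ π c σ) (h' : hG.Rep θ π' c' σ') : π = π' ∧ c = c' ∧ σ = σ' := by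
  have key : ∀ i t, hG.xT (D.simple (π i)) ((c (π i) : F) * σ t ^ D.graphExp (ringChar F) i (π i)) =
      hG.xT (D.simple (π' i)) ((c' (π' i) : F) * σ' t ^ D.graphExp (ringChar F) i (π' i)) := fun i t => by
    rw [← (h i t).1, (h' i t).1]
  have hπ : ∀ i, π i = π' i := by
    intro i
    have e := key i 1
    rw [hG.xT_of_lt (hG.simple_lt (π i).2), hG.xT_of_lt (hG.simple_lt (π' i).2)] at e
    simp only [map_one, one_pow, mul_one] at e
    have e1 := hG.xU_root_unique (hG.simple_lt (π i).2) (hG.simple_lt (π' i).2) (Units.ne_zero (c (π i)))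
      (congrArg Subtype.val e)
    exact Fin.ext (hG.simple_inj (π i).2 (π' i).2 e1)
  have hπ' : π = π' := Equiv.ext hπ
  subst hπ'
  have key2 : ∀ i t, (c (π i) : F) * σ t ^ D.graphExp (ringChar F) i (π i) =
      (c' (π i) : F) * σ' t ^ D.graphExp (ringChar F) i (π i) := fun i t => by
    have e := key i t
    rw [hG.xT_of_lt (hG.simple_lt (π i).2), hG.xT_of_lt (hG.simple_lt (π i).2)] at e
    exact hG.xG_inj _ e
  have hc : ∀ j, c j = c' j := by
    intro j
    have e := key2 (π.symm j) 1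
    simp only [map_one, one_pow, mul_one, Equiv.apply_symm_apply] at e
    exact Units.ext e
  have hc' : c = c' := funext hc
  subst hc'
  refine ⟨rfl, rfl, ?_⟩
  obtain ⟨i, hi⟩ := exists_exp_one h0 (ringChar F) π
  ext t
  have e := key2 i t
  rw [hi, pow_one, pow_one] at e
  exact mul_left_cancel₀ (Units.ne_zero _) e

end Tbl.Good2

namespace Tbl.Good3

variable (hG : T.Good3 D)
include hG

/-- Parameters are realised. -/
theorem exists_of_params {π : Equiv.Perm (Fin D.rank)} (hπ : hG.toGood2.Adm F π) (c : Fin D.rank → Fˣ) (σ : F ≃+* F) :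
    ∃ θ : stdGroup D F, hG.toGood2.Rep (θ : MulAut ↥(D.group F)) π c σ := by
  obtain ⟨g, hgs, hg⟩ := hπ
  obtain ⟨f, hf⟩ := exists_fieldAut D σ
  obtain ⟨A, hA⟩ := hG.exists_coef
  obtain ⟨d, -, hd2⟩ := exists_diagAut (hG.toGood2.sane) (charOf_isChar hA c)
  have hx : ∀ {r : ℕ} (hr : r < D.nroots) (t : F), f (hG.toGood2.xT r t) = hG.toGood2.xT r (σ t) := fun {r} hr t =>
    hG.toGood2.eq_xT (hf _ r t hr (hG.toGood2.xT_coe r t))
  have hy : ∀ {r : ℕ} (hr : r < D.nroots) (t : F), d (hG.toGood2.xT r t) =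
      hG.toGood2.xT r (((charOf D A c r : Fˣ) : F) * t) := fun {r} hr t =>
    hG.toGood2.eq_xT (hd2 _ r t hr (hG.toGood2.xT_coe r t))
  have hfs : IsStd f := hG.toGood2.isStd_of_scale (fun _ t => σ t) (fun _ => σ.surjective) fun r hr t => hx hr t
  have hds : IsStd d := hG.toGood2.isStd_of_scale (fun r t => ((charOf D A c r : Fˣ) : F) * t)
    (fun r u => ⟨(((charOf D A c r)⁻¹ : Fˣ) : F) * u, by simp⟩) fun r hr t => hy hr t
  refine ⟨⟨d * (g * f), (stdGroup D F).mul_mem hds ((stdGroup D F).mul_mem hgs hfs)⟩, fun i t => ⟨?_, ?_⟩⟩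
  · show d (g (f _)) = _
    have hp := hG.toGood2.simple_lt i.2
    have hp' := hG.toGood2.simple_lt (π i).2
    rw [hx hp, (hg i (σ t)).1, hy hp', charOf_simple hA]
  · show d (g (f _)) = _
    have hp := hG.toGood2.neg_lt (hG.toGood2.simple_lt i.2)
    have hp' := hG.toGood2.neg_lt (hG.toGood2.simple_lt (π i).2)
    rw [hx hp, (hg i (σ t)).2, hy hp', charOf_neg hA _ (hG.toGood2.simple_lt (π i).2), charOf_simple hA]

/-- Every standard automorphism has parameters. -/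
theorem exists_params [Finite F] (hε : T.chkRank1 = true) (hW : W0s T D)
    (hτ : ∀ (θ : ↥(D.group F) ≃* ↥(D.group F)) (π : Equiv.Perm (Fin D.rank)) (c : Fin D.rank → F)
      (τ : Fin D.rank → (F ≃+* F)), hG.toGood2.Form θ π c τ → TauOK F D π τ)
    (θ : stdGroup D F) :
    ∃ π : Equiv.Perm (Fin D.rank), hG.toGood2.Adm F π ∧ ∃ c : Fin D.rank → Fˣ, ∃ σ : F ≃+* F,
      hG.toGood2.Rep (θ : MulAut ↥(D.group F)) π c σ := by
  obtain ⟨θ, hs⟩ := θ
  obtain ⟨π, c, hc, τ, hform⟩ := hG.std_form (F := F) hε hW hs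
  have hF : hG.toGood2.Form θ π c τ :=
    { c_ne := hc
      pos := fun i t => by
        rw [hG.toGood2.xT_of_lt (hG.toGood2.simple_lt i.2), hG.toGood2.xT_of_lt (hG.toGood2.simple_lt (π i).2)]
        exact (hform i t).1
      neg := fun i t => by
        rw [hG.toGood2.xT_of_lt (hG.toGood2.neg_lt (hG.toGood2.simple_lt i.2)),
          hG.toGood2.xT_of_lt (hG.toGood2.neg_lt (hG.toGood2.simple_lt (π i).2))]
        exact (hform i t).2 }
  obtain ⟨-, σ, hσ⟩ := hτ _ _ _ _ hF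
  let c' : Fin D.rank → Fˣ := fun j => Units.mk0 (c (π⁻¹ j)) (hc _)
  have hc' : ∀ i, ((c' (π i) : Fˣ) : F) = c i := fun i => by
    simp [c']
  have hc'' : ∀ i, (((c' (π i))⁻¹ : Fˣ) : F) = (c i)⁻¹ := fun i => by
    rw [Units.val_inv_eq_inv_val, hc']
  have hrep : hG.toGood2.Rep θ π c' σ := fun i t => by
    refine ⟨?_, ?_⟩
    · rw [hF.pos, hσ, hc']
    · rw [hF.neg, hσ, hc'']
  refine ⟨π, ?_, c', σ, hrep⟩
  obtain ⟨f, hf⟩ := exists_fieldAut D σ
  obtain ⟨A, hA⟩ := hG.exists_coef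
  obtain ⟨d, -, hd2⟩ := exists_diagAut (hG.toGood2.sane) (charOf_isChar hA c')
  have hx : ∀ {r : ℕ} (hr : r < D.nroots) (t : F), f (hG.toGood2.xT r t) = hG.toGood2.xT r (σ t) := fun {r} hr t =>
    hG.toGood2.eq_xT (hf _ r t hr (hG.toGood2.xT_coe r t))
  have hx' : ∀ {r : ℕ} (hr : r < D.nroots) (t : F), f.symm (hG.toGood2.xT r t) = hG.toGood2.xT r (σ.symm t) := fun {r} hr t => by
    rw [MulEquiv.symm_apply_eq, hx hr, RingEquiv.apply_symm_apply]
  have hy : ∀ {r : ℕ} (hr : r < D.nroots) (t : F), d (hG.toGood2.xT r t) =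
      hG.toGood2.xT r (((charOf D A c' r : Fˣ) : F) * t) := fun {r} hr t =>
    hG.toGood2.eq_xT (hd2 _ r t hr (hG.toGood2.xT_coe r t))
  have hfs : IsStd f := hG.toGood2.isStd_of_scale (fun _ t => σ t) (fun _ => σ.surjective) fun r hr t => hx hr t
  have hds : IsStd d := hG.toGood2.isStd_of_scale (fun r t => ((charOf D A c' r : Fˣ) : F) * t)
    (fun r u => ⟨(((charOf D A c' r)⁻¹ : Fˣ) : F) * u, by simp⟩) fun r hr t => hy hr t
  refine ⟨d.symm * (θ * f.symm), (stdGroup D F).mul_mem hds.symm ((stdGroup D F).mul_mem hs hfs.symm), fun i t => ⟨?_, ?_⟩⟩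
  · show d.symm (θ (f.symm _)) = _
    have hp := hG.toGood2.simple_lt i.2
    have hp' := hG.toGood2.simple_lt (π i).2
    rw [MulEquiv.symm_apply_eq, hx' hp, (hrep i _).1, hy hp', RingEquiv.apply_symm_apply, charOf_simple hA]
  · show d.symm (θ (f.symm _)) = _
    have hp := hG.toGood2.neg_lt (hG.toGood2.simple_lt i.2)
    have hp' := hG.toGood2.neg_lt (hG.toGood2.simple_lt (π i).2)
    rw [MulEquiv.symm_apply_eq, hx' hp, (hrep i _).2, hy hp', RingEquiv.apply_symm_apply,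
      charOf_neg hA _ (hG.toGood2.simple_lt (π i).2), charOf_simple hA]

/-- The count of the standard automorphisms. -/
theorem card_stdGroup_params [Finite F] (h0 : 0 < D.rank) (hε : T.chkRank1 = true) (hW : W0s T D)
    (hτ : ∀ (θ : ↥(D.group F) ≃* ↥(D.group F)) (π : Equiv.Perm (Fin D.rank)) (c : Fin D.rank → F)
      (τ : Fin D.rank → (F ≃+* F)), hG.toGood2.Form θ π c τ → TauOK F D π τ) :
    Nat.card (stdGroup D F) = Nat.card {π : Equiv.Perm (Fin D.rank) // hG.toGood2.Adm F π} *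
      ((Nat.card F - 1) ^ D.rank * Nat.card (F ≃+* F)) := by
  classical
  haveI := Fintype.ofFinite F
  have hcard : Nat.card (Fin D.rank → Fˣ) = (Nat.card F - 1) ^ D.rank := by
    rw [Nat.card_eq_fintype_card, Fintype.card_fun, Fintype.card_fin, Fintype.card_units, Nat.card_eq_fintype_card]
  rw [← hcard, ← Nat.card_prod, ← Nat.card_prod]
  choose φ hφ using fun p : {π : Equiv.Perm (Fin D.rank) // hG.toGood2.Adm F π} × (Fin D.rank → Fˣ) × (F ≃+* F) =>
    hG.exists_of_params p.1.2 p.2.1 p.2.2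
  symm
  refine Nat.card_congr (Equiv.ofBijective φ ⟨?_, ?_⟩)
  · rintro ⟨⟨π, hπ⟩, c, σ⟩ ⟨⟨π', hπ'⟩, c', σ'⟩ e
    have h1 := hφ (⟨π, hπ⟩, c, σ)
    have h2 := hφ (⟨π', hπ'⟩, c', σ')
    rw [e] at h1
    obtain ⟨rfl, rfl, rfl⟩ := Tbl.Good2.Rep.params hG.toGood2 h0 h1 h2
    rfl
  · intro θ
    obtain ⟨π, hπ, c, σ, h⟩ := hG.exists_params hε hW hτ θ
    refine ⟨(⟨π, hπ⟩, c, σ), ?_⟩
    have h2 := hφ (⟨π, hπ⟩, c, σ)
    exact Subtype.ext (Tbl.Good2.Rep.unique hG.toGood2 h2 h)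

end Tbl.Good3

end

end Cfsg.Agent.Lib.Chev
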