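/-
The order of the outer automorphism group of a Chevalley group, in terms of the admissible permutations of the nodes.
-/
import Cfsg.Agent.Lib.ChevAut.Param
import Cfsg.Agent.Lib.Chev.Graph

set_option autoImplicit false

namespace Cfsg.Agent.Lib.Chev

open Cfsg.Lie

section

variable {F : Type*} [Field F] {D : ChevalleyDatum} {T : Tbl}

namespace Tbl.Good2

variable (hG : T.Good2 D)
include hG

/-- The identity permutation is admissible. -/
lemma adm_one : hG.Adm F 1 := by
  refine ⟨MulEquiv.refl _, ⟨Subgroup.map_id _, Subgroup.map_id _⟩, fun i t => ?_⟩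
  simp only [Equiv.Perm.coe_one, id_eq, graphExp_self, pow_one]
  exact ⟨rfl, rfl⟩

/-- The images of root elements under a graph automorphism of the tables. -/
lemma graphD_xT (G : GraphD D) {g : ↥(D.group F) ≃* ↥(D.group F)}
    (hg : ∀ (g' : ↥(D.group F)) (r : ℕ) (t : F), r < D.nroots →
      ((g' : GL D.Idx F) : Matrix D.Idx D.Idx F) = D.x F r t →
        ((g g' : GL D.Idx F) : Matrix D.Idx D.Idx F) = D.x F (G.bar r) (((G.e r : ℤ) : F) * t))
    {r : ℕ} (hr : r < D.nroots) (t : F) : g (hG.xT r t) = hG.xT (G.bar r) (((G.e r : ℤ) : F) * t) :=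
  hG.eq_xT (hg _ r t hr (hG.xT_coe r t))

/-- A graph automorphism of the tables preserving the positive roots gives an admissible permutation. -/
theorem adm_of_graphD (G : GraphD D) (π : Equiv.Perm (Fin D.rank))
    (hπ : ∀ i : Fin D.rank, G.bar (D.simple i) = D.simple (π i) ∧ G.e (D.simple i) = 1 ∧
      G.bar (D.neg (D.simple i)) = D.neg (D.simple (π i)) ∧ G.e (D.neg (D.simple i)) = 1)
    (hpos : ∀ r, r < D.nroots → (D.nroots / 2 ≤ r ↔ D.nroots / 2 ≤ G.bar r))
    (hexp : ∀ i : Fin D.rank, D.graphExp (ringChar F) i (π i) = 1) : hG.Adm F π := by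
  obtain ⟨g, hg⟩ := G.exists_aut (F := F) hG.sane
  have hx := fun {r : ℕ} (hr : r < D.nroots) (t : F) => hG.graphD_xT G hg hr t
  have hx' : ∀ {r : ℕ} (hr : r < D.nroots) (t : F), g.symm (hG.xT r t) =
      hG.xT (G.barI r) (((G.e (G.barI r) : ℤ) : F) * t) := fun {r} hr t => by
    rw [MulEquiv.symm_apply_eq, hx (G.barI_lt r hr), G.bar_barI r hr, ← mul_assoc, G.e_sq F (G.barI_lt r hr), one_mul]
  have h2 : ∀ {r : ℕ}, r < D.nroots / 2 → r < D.nroots := fun hr => by
    have := hG.even_n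
    omega
  refine ⟨g, hG.isStd_of ?_ ?_ ?_ ?_, fun i t => ?_⟩
  · intro r hr hp t
    rw [hx hr]
    exact hG.xT_mem_gU (G.bar_lt r hr) ((hpos r hr).1 hp) _
  · intro r hr t
    rw [hx (h2 hr)]
    refine hG.xT_mem_gV (G.bar_lt r (h2 hr)) ?_ _
    by_contra hn
    exact absurd ((hpos r (h2 hr)).2 (not_lt.1 hn)) (not_le.2 hr)
  · intro r hr hp t
    rw [hx' hr]
    have := G.barI_lt r hr
    refine hG.xT_mem_gU this ?_ _
    rw [hpos _ this, G.bar_barI r hr]
    exact hp
  · intro r hr t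
    rw [hx' (h2 hr)]
    have := G.barI_lt r (h2 hr)
    refine hG.xT_mem_gV this ?_ _
    by_contra hn
    have h3 := (hpos _ this).1 (not_lt.1 hn)
    rw [G.bar_barI r (h2 hr)] at h3
    exact absurd h3 (not_le.2 hr)
  · obtain ⟨e1, e2, e3, e4⟩ := hπ i
    rw [hexp i, pow_one]
    refine ⟨?_, ?_⟩
    · rw [hx (hG.simple_lt i.2), e1, e2]
      simp
    · rw [hx (hG.neg_lt (hG.simple_lt i.2)), e3, e4]
      simp

/-- Admissible permutations are symmetries when there is one root length. -/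
theorem sym_of_adm (hL : ∀ i : Fin D.rank, D.isLong (D.simple i) = false)
    (hτ : ∀ (θ : ↥(D.group F) ≃* ↥(D.group F)) (π : Equiv.Perm (Fin D.rank)) (c : Fin D.rank → F)
      (τ : Fin D.rank → (F ≃+* F)), hG.Form θ π c τ → TauOK F D π τ)
    {π : Equiv.Perm (Fin D.rank)} (h : hG.Adm F π) : D.IsDiagramSymmetry π := by
  obtain ⟨g, -, hg⟩ := h
  refine (hτ g π (fun _ => 1) (fun _ => RingEquiv.refl F) ⟨fun _ => one_ne_zero, fun i t => ?_, fun i t => ?_⟩).1
  · rw [(hg i t).1, graphExp_of_not_long _ _ _ _ (hL (π i)), pow_one]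
    simp
  · rw [(hg i t).2, graphExp_of_not_long _ _ _ _ (hL (π i)), pow_one]
    simp

end Tbl.Good2

namespace Tbl.Good3

variable (hG : T.Good3 D)
include hG

/-- The order of the outer automorphism group. -/
theorem card_out_mul [Finite F] (h0 : 0 < D.rank) (hε : T.chkRank1 = true) (hW : W0s T D)
    (hτ : ∀ (θ : ↥(D.group F) ≃* ↥(D.group F)) (π : Equiv.Perm (Fin D.rank)) (c : Fin D.rank → F)
      (τ : Fin D.rank → (F ≃+* F)), hG.toGood2.Form θ π c τ → TauOK F D π τ) :
    Nat.card (Cfsg.Out ↥(D.group F)) * Nat.card (D.diagonalSubgroup F) =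
      Nat.card {π : Equiv.Perm (Fin D.rank) // hG.toGood2.Adm F π} *
        ((Nat.card F - 1) ^ D.rank * Nat.card (F ≃+* F)) := by
  rw [← hG.card_stdGroup_params h0 hε hW hτ, hG.card_stdGroup]
  congr 1
  exact (Nat.card_congr (Subgroup.subgroupOfEquivOfLe hG.H_le_group).toEquiv).symm

end Tbl.Good3

end

end Cfsg.Agent.Lib.Chev
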