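/-
The symmetries of the Dynkin diagrams. Generated.
-/
import Cfsg.Prelude.Def_ChevAutomorphisms
import Cfsg.Prelude.Def_ChevG2
import Cfsg.Prelude.Def_ChevB2
import Cfsg.Prelude.Def_ChevD4
import Cfsg.Prelude.Def_ChevF4
import Cfsg.Prelude.Def_ChevE6
import Cfsg.Prelude.Def_ChevE7
import Cfsg.Prelude.Def_ChevE8

set_option autoImplicit false
set_option maxRecDepth 100000
set_option maxHeartbeats 0
set_option synthInstance.maxHeartbeats 0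
set_option synthInstance.maxSize 100000

namespace Cfsg.Agent.Lib.Chev

open Cfsg.Lie

/-- The symmetries of the diagram of type E8. -/
theorem symE8 (π : Equiv.Perm (Fin chevE8.rank)) (h : chevE8.IsDiagramSymmetry π) :
    (∀ i : Fin chevE8.rank, (π i).val = [0, 1, 2, 3, 4, 5, 6, 7].getD i 0) := by
  have key : ∀ a0 : Fin chevE8.rank, ∀ a1 : Fin chevE8.rank, (a1 ≠ a0 ∧ chevE8.bonds a0 a1 = chevE8.bonds 0 1) → ∀ a2 : Fin chevE8.rank, (a2 ≠ a0 ∧ chevE8.bonds a0 a2 = chevE8.bonds 0 2 ∧ a2 ≠ a1 ∧ chevE8.bonds a1 a2 = chevE8.bonds 1 2) → ∀ a3 : Fin chevE8.rank, (a3 ≠ a0 ∧ chevE8.bonds a0 a3 = chevE8.bonds 0 3 ∧ a3 ≠ a1 ∧ chevE8.bonds a1 a3 = chevE8.bonds 1 3 ∧ a3 ≠ a2 ∧ chevE8.bonds a2 a3 = chevE8.bonds 2 3) → ∀ a4 : Fin chevE8.rank, (a4 ≠ a0 ∧ chevE8.bonds a0 a4 = chevE8.bonds 0 4 ∧ a4 ≠ a1 ∧ chevE8.bonds a1 a4 = chevE8.bonds 1 4 ∧ a4 ≠ a2 ∧ chevE8.bonds a2 a4 = chevE8.bonds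 2 4 ∧ a4 ≠ a3 ∧ chevE8.bonds a3 a4 = chevE8.bonds 3 4) → ∀ a5 : Fin chevE8.rank, (a5 ≠ a0 ∧ chevE8.bonds a0 a5 = chevE8.bonds 0 5 ∧ a5 ≠ a1 ∧ chevE8.bonds a1 a5 = chevE8.bonds 1 5 ∧ a5 ≠ a2 ∧ chevE8.bonds a2 a5 = chevE8.bonds 2 5 ∧ a5 ≠ a3 ∧ chevE8.bonds a3 a5 = chevE8.bonds 3 5 ∧ a5 ≠ a4 ∧ chevE8.bonds a4 a5 = chevE8.bonds 4 5) → ∀ a6 : Fin chevE8.rank, (a6 ≠ a0 ∧ chevE8.bonds a0 a6 = chevE8.bonds 0 6 ∧ a6 ≠ a1 ∧ chevE8.bonds a1 a6 = chevE8.bonds 1 6 ∧ a6 ≠ a2 ∧ chevE8.bonds a2 a6 = chevE8.bonds 2 6 ∧ a6 ≠ a3 ∧ chevE8.bonds a3 a6 = chevE8.bonds 3 6 ∧ a6 ≠ a4 ∧ chevE8.bonds a4 a6 = chevE8.bonds 4 6 ∧ a6 ≠ a5 ∧ chevE8.bonds a5 a6 = chevE8.bonds 5 6) → ∀ a7 : Fin chevE8.rank, (a7 ≠ a0 ∧ chevE8.bonds a0 a7 = chevE8.bonds 0 7 ∧ a7 ≠ a1 ∧ chevE8.bonds a1 a7 = chevE8.bonds 1 7 ∧ a7 ≠ a2 ∧ chevE8.bonds a2 a7 = chevE8.bonds 2 7 ∧ a7 ≠ a3 ∧ chevE8.bonds a3 a7 = chevE8.bonds 3 7 ∧ a7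 ≠ a4 ∧ chevE8.bonds a4 a7 = chevE8.bonds 4 7 ∧ a7 ≠ a5 ∧ chevE8.bonds a5 a7 = chevE8.bonds 5 7 ∧ a7 ≠ a6 ∧ chevE8.bonds a6 a7 = chevE8.bonds 6 7) → (a0.val = 0 ∧ a1.val = 1 ∧ a2.val = 2 ∧ a3.val = 3 ∧ a4.val = 4 ∧ a5.val = 5 ∧ a6.val = 6 ∧ a7.val = 7) := by decide +kernel
  let n0 : Fin chevE8.rank := ⟨0, by decide⟩
  let n1 : Fin chevE8.rank := ⟨1, by decide⟩
  let n2 : Fin chevE8.rank := ⟨2, by decide⟩
  let n3 : Fin chevE8.rank := ⟨3, by decide⟩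
  let n4 : Fin chevE8.rank := ⟨4, by decide⟩
  let n5 : Fin chevE8.rank := ⟨5, by decide⟩
  let n6 : Fin chevE8.rank := ⟨6, by decide⟩
  let n7 : Fin chevE8.rank := ⟨7, by decide⟩
  have h0_1 : π n1 ≠ π n0 := fun e => absurd (π.injective e) (by decide)
  have h0_2 : π n2 ≠ π n0 := fun e => absurd (π.injective e) (by decide)
  have h0_3 : π n3 ≠ π n0 := fun e => absurd (π.injective e) (by decide)
  have h0_4 : π n4 ≠ π n0 := fun e => absurd (π.injective e) (by decide)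
  have h0_5 : π n5 ≠ π n0 := fun e => absurd (π.injective e) (by decide)
  have h0_6 : π n6 ≠ π n0 := fun e => absurd (π.injective e) (by decide)
  have h0_7 : π n7 ≠ π n0 := fun e => absurd (π.injective e) (by decide)
  have h1_2 : π n2 ≠ π n1 := fun e => absurd (π.injective e) (by decide)
  have h1_3 : π n3 ≠ π n1 := fun e => absurd (π.injective e) (by decide)
  have h1_4 : π n4 ≠ π n1 := fun e => absurd (π.injective e) (by decide)
  have h1_5 : π n5 ≠ π n1 := fun e => absurd (π.injective e) (by decide)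
  have h1_6 : π n6 ≠ π n1 := fun e => absurd (π.injective e) (by decide)
  have h1_7 : π n7 ≠ π n1 := fun e => absurd (π.injective e) (by decide)
  have h2_3 : π n3 ≠ π n2 := fun e => absurd (π.injective e) (by decide)
  have h2_4 : π n4 ≠ π n2 := fun e => absurd (π.injective e) (by decide)
  have h2_5 : π n5 ≠ π n2 := fun e => absurd (π.injective e) (by decide)
  have h2_6 : π n6 ≠ π n2 := fun e => absurd (π.injective e) (by decide)
  have h2_7 : π n7 ≠ π n2 := fun e => absurd (π.injective e) (by decide)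
  have h3_4 : π n4 ≠ π n3 := fun e => absurd (π.injective e) (by decide)
  have h3_5 : π n5 ≠ π n3 := fun e => absurd (π.injective e) (by decide)
  have h3_6 : π n6 ≠ π n3 := fun e => absurd (π.injective e) (by decide)
  have h3_7 : π n7 ≠ π n3 := fun e => absurd (π.injective e) (by decide)
  have h4_5 : π n5 ≠ π n4 := fun e => absurd (π.injective e) (by decide)
  have h4_6 : π n6 ≠ π n4 := fun e => absurd (π.injective e) (by decide)
  have h4_7 : π n7 ≠ π n4 := fun e => absurd (π.injective e) (by decide)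
  have h5_6 : π n6 ≠ π n5 := fun e => absurd (π.injective e) (by decide)
  have h5_7 : π n7 ≠ π n5 := fun e => absurd (π.injective e) (by decide)
  have h6_7 : π n7 ≠ π n6 := fun e => absurd (π.injective e) (by decide)
  have b0_1 := h n0 n1 (by decide)
  have b0_2 := h n0 n2 (by decide)
  have b0_3 := h n0 n3 (by decide)
  have b0_4 := h n0 n4 (by decide)
  have b0_5 := h n0 n5 (by decide)
  have b0_6 := h n0 n6 (by decide)
  have b0_7 := h n0 n7 (by decide)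
  have b1_2 := h n1 n2 (by decide)
  have b1_3 := h n1 n3 (by decide)
  have b1_4 := h n1 n4 (by decide)
  have b1_5 := h n1 n5 (by decide)
  have b1_6 := h n1 n6 (by decide)
  have b1_7 := h n1 n7 (by decide)
  have b2_3 := h n2 n3 (by decide)
  have b2_4 := h n2 n4 (by decide)
  have b2_5 := h n2 n5 (by decide)
  have b2_6 := h n2 n6 (by decide)
  have b2_7 := h n2 n7 (by decide)
  have b3_4 := h n3 n4 (by decide)
  have b3_5 := h n3 n5 (by decide)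
  have b3_6 := h n3 n6 (by decide)
  have b3_7 := h n3 n7 (by decide)
  have b4_5 := h n4 n5 (by decide)
  have b4_6 := h n4 n6 (by decide)
  have b4_7 := h n4 n7 (by decide)
  have b5_6 := h n5 n6 (by decide)
  have b5_7 := h n5 n7 (by decide)
  have b6_7 := h n6 n7 (by decide)
  have k := key (π n0) (π n1) ⟨h0_1, b0_1⟩ (π n2) ⟨h0_2, b0_2, h1_2, b1_2⟩ (π n3) ⟨h0_3, b0_3, h1_3, b1_3, h2_3, b2_3⟩ (π n4) ⟨h0_4, b0_4, h1_4, b1_4, h2_4, b2_4, h3_4, b3_4⟩ (π n5) ⟨h0_5, b0_5, h1_5, b1_5, h2_5, b2_5, h3_5, b3_5, h4_5, b4_5⟩ (π n6) ⟨h0_6, b0_6, h1_6, b1_6, h2_6, b2_6, h3_6, b3_6, h4_6, b4_6, h5_6, b5_6⟩ (π n7) ⟨h0_7, b0_7, h1_7, b1_7, h2_7, b2_7, h3_7, b3_7, h4_7, b4_7, h5_7, b5_7, h6_7, b6_7⟩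
  have hn : ∀ i : Fin chevE8.rank, i = n0 ∨ i = n1 ∨ i = n2 ∨ i = n3 ∨ i = n4 ∨ i = n5 ∨ i = n6 ∨ i = n7 := by decide
  rcases k with ⟨e0, e1, e2, e3, e4, e5, e6, e7⟩
  · skip
    intro i
    rcases hn i with rfl | rfl | rfl | rfl | rfl | rfl | rfl | rfl
    · exact e0
    · exact e1
    · exact e2
    · exact e3
    · exact e4
    · exact e5
    · exact e6
    · exact e7

/-- The symmetries of the diagram of type E7. -/
theorem symE7 (π : Equiv.Perm (Fin chevE7.rank)) (h : chevE7.IsDiagramSymmetry π) :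
    (∀ i : Fin chevE7.rank, (π i).val = [0, 1, 2, 3, 4, 5, 6].getD i 0) := by
  have key : ∀ a0 : Fin chevE7.rank, ∀ a1 : Fin chevE7.rank, (a1 ≠ a0 ∧ chevE7.bonds a0 a1 = chevE7.bonds 0 1) → ∀ a2 : Fin chevE7.rank, (a2 ≠ a0 ∧ chevE7.bonds a0 a2 = chevE7.bonds 0 2 ∧ a2 ≠ a1 ∧ chevE7.bonds a1 a2 = chevE7.bonds 1 2) → ∀ a3 : Fin chevE7.rank, (a3 ≠ a0 ∧ chevE7.bonds a0 a3 = chevE7.bonds 0 3 ∧ a3 ≠ a1 ∧ chevE7.bonds a1 a3 = chevE7.bonds 1 3 ∧ a3 ≠ a2 ∧ chevE7.bonds a2 a3 = chevE7.bonds 2 3) → ∀ a4 : Fin chevE7.rank, (a4 ≠ a0 ∧ chevE7.bonds a0 a4 = chevE7.bonds 0 4 ∧ a4 ≠ a1 ∧ chevE7.bonds a1 a4 = chevE7.bonds 1 4 ∧ a4 ≠ a2 ∧ chevE7.bonds a2 a4 = chevE7.bonds 2 4 ∧ a4 ≠ a3 ∧ chevE7.bonds a3 a4 = chevE7.bonds 3 4) → ∀ a5 : Fin chevE7.rank, (a5 ≠ a0 ∧ chevE7.bonds a0 a5 = chevE7.bonds 0 5 ∧ a5 ≠ a1 ∧ chevE7.bonds a1 a5 = chevE7.bonds 1 5 ∧ a5 ≠ a2 ∧ chevE7.bonds a2 a5 = chevE7.bonds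 2 5 ∧ a5 ≠ a3 ∧ chevE7.bonds a3 a5 = chevE7.bonds 3 5 ∧ a5 ≠ a4 ∧ chevE7.bonds a4 a5 = chevE7.bonds 4 5) → ∀ a6 : Fin chevE7.rank, (a6 ≠ a0 ∧ chevE7.bonds a0 a6 = chevE7.bonds 0 6 ∧ a6 ≠ a1 ∧ chevE7.bonds a1 a6 = chevE7.bonds 1 6 ∧ a6 ≠ a2 ∧ chevE7.bonds a2 a6 = chevE7.bonds 2 6 ∧ a6 ≠ a3 ∧ chevE7.bonds a3 a6 = chevE7.bonds 3 6 ∧ a6 ≠ a4 ∧ chevE7.bonds a4 a6 = chevE7.bonds 4 6 ∧ a6 ≠ a5 ∧ chevE7.bonds a5 a6 = chevE7.bonds 5 6) → (a0.val = 0 ∧ a1.val = 1 ∧ a2.val = 2 ∧ a3.val = 3 ∧ a4.val = 4 ∧ a5.val = 5 ∧ a6.val = 6) := by decide +kernel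
  let n0 : Fin chevE7.rank := ⟨0, by decide⟩
  let n1 : Fin chevE7.rank := ⟨1, by decide⟩
  let n2 : Fin chevE7.rank := ⟨2, by decide⟩
  let n3 : Fin chevE7.rank := ⟨3, by decide⟩
  let n4 : Fin chevE7.rank := ⟨4, by decide⟩
  let n5 : Fin chevE7.rank := ⟨5, by decide⟩
  let n6 : Fin chevE7.rank := ⟨6, by decide⟩
  have h0_1 : π n1 ≠ π n0 := fun e => absurd (π.injective e) (by decide)
  have h0_2 : π n2 ≠ π n0 := fun e => absurd (π.injective e) (by decide)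
  have h0_3 : π n3 ≠ π n0 := fun e => absurd (π.injective e) (by decide)
  have h0_4 : π n4 ≠ π n0 := fun e => absurd (π.injective e) (by decide)
  have h0_5 : π n5 ≠ π n0 := fun e => absurd (π.injective e) (by decide)
  have h0_6 : π n6 ≠ π n0 := fun e => absurd (π.injective e) (by decide)
  have h1_2 : π n2 ≠ π n1 := fun e => absurd (π.injective e) (by decide)
  have h1_3 : π n3 ≠ π n1 := fun e => absurd (π.injective e) (by decide)
  have h1_4 : π n4 ≠ π n1 := fun e => absurd (π.injective e) (by decide)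
  have h1_5 : π n5 ≠ π n1 := fun e => absurd (π.injective e) (by decide)
  have h1_6 : π n6 ≠ π n1 := fun e => absurd (π.injective e) (by decide)
  have h2_3 : π n3 ≠ π n2 := fun e => absurd (π.injective e) (by decide)
  have h2_4 : π n4 ≠ π n2 := fun e => absurd (π.injective e) (by decide)
  have h2_5 : π n5 ≠ π n2 := fun e => absurd (π.injective e) (by decide)
  have h2_6 : π n6 ≠ π n2 := fun e => absurd (π.injective e) (by decide)
  have h3_4 : π n4 ≠ π n3 := fun e => absurd (π.injective e) (by decide)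
  have h3_5 : π n5 ≠ π n3 := fun e => absurd (π.injective e) (by decide)
  have h3_6 : π n6 ≠ π n3 := fun e => absurd (π.injective e) (by decide)
  have h4_5 : π n5 ≠ π n4 := fun e => absurd (π.injective e) (by decide)
  have h4_6 : π n6 ≠ π n4 := fun e => absurd (π.injective e) (by decide)
  have h5_6 : π n6 ≠ π n5 := fun e => absurd (π.injective e) (by decide)
  have b0_1 := h n0 n1 (by decide)
  have b0_2 := h n0 n2 (by decide)
  have b0_3 := h n0 n3 (by decide)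
  have b0_4 := h n0 n4 (by decide)
  have b0_5 := h n0 n5 (by decide)
  have b0_6 := h n0 n6 (by decide)
  have b1_2 := h n1 n2 (by decide)
  have b1_3 := h n1 n3 (by decide)
  have b1_4 := h n1 n4 (by decide)
  have b1_5 := h n1 n5 (by decide)
  have b1_6 := h n1 n6 (by decide)
  have b2_3 := h n2 n3 (by decide)
  have b2_4 := h n2 n4 (by decide)
  have b2_5 := h n2 n5 (by decide)
  have b2_6 := h n2 n6 (by decide)
  have b3_4 := h n3 n4 (by decide)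
  have b3_5 := h n3 n5 (by decide)
  have b3_6 := h n3 n6 (by decide)
  have b4_5 := h n4 n5 (by decide)
  have b4_6 := h n4 n6 (by decide)
  have b5_6 := h n5 n6 (by decide)
  have k := key (π n0) (π n1) ⟨h0_1, b0_1⟩ (π n2) ⟨h0_2, b0_2, h1_2, b1_2⟩ (π n3) ⟨h0_3, b0_3, h1_3, b1_3, h2_3, b2_3⟩ (π n4) ⟨h0_4, b0_4, h1_4, b1_4, h2_4, b2_4, h3_4, b3_4⟩ (π n5) ⟨h0_5, b0_5, h1_5, b1_5, h2_5, b2_5, h3_5, b3_5, h4_5, b4_5⟩ (π n6) ⟨h0_6, b0_6, h1_6, b1_6, h2_6, b2_6, h3_6, b3_6, h4_6, b4_6, h5_6, b5_6⟩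
  have hn : ∀ i : Fin chevE7.rank, i = n0 ∨ i = n1 ∨ i = n2 ∨ i = n3 ∨ i = n4 ∨ i = n5 ∨ i = n6 := by decide
  rcases k with ⟨e0, e1, e2, e3, e4, e5, e6⟩
  · skip
    intro i
    rcases hn i with rfl | rfl | rfl | rfl | rfl | rfl | rfl
    · exact e0
    · exact e1
    · exact e2
    · exact e3
    · exact e4
    · exact e5
    · exact e6

/-- The symmetries of the diagram of type E6. -/
theorem symE6 (π : Equiv.Perm (Fin chevE6.rank)) (h : chevE6.IsDiagramSymmetry π) :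
    (∀ i : Fin chevE6.rank, (π i).val = [0, 1, 2, 3, 4, 5].getD i 0) ∨ (∀ i : Fin chevE6.rank, (π i).val = [5, 1, 4, 3, 2, 0].getD i 0) := by
  have key : ∀ a0 : Fin chevE6.rank, ∀ a1 : Fin chevE6.rank, (a1 ≠ a0 ∧ chevE6.bonds a0 a1 = chevE6.bonds 0 1) → ∀ a2 : Fin chevE6.rank, (a2 ≠ a0 ∧ chevE6.bonds a0 a2 = chevE6.bonds 0 2 ∧ a2 ≠ a1 ∧ chevE6.bonds a1 a2 = chevE6.bonds 1 2) → ∀ a3 : Fin chevE6.rank, (a3 ≠ a0 ∧ chevE6.bonds a0 a3 = chevE6.bonds 0 3 ∧ a3 ≠ a1 ∧ chevE6.bonds a1 a3 = chevE6.bonds 1 3 ∧ a3 ≠ a2 ∧ chevE6.bonds a2 a3 = chevE6.bonds 2 3) → ∀ a4 : Fin chevE6.rank, (a4 ≠ a0 ∧ chevE6.bonds a0 a4 = chevE6.bonds 0 4 ∧ a4 ≠ a1 ∧ chevE6.bonds a1 a4 = chevE6.bonds 1 4 ∧ a4 ≠ a2 ∧ chevE6.bonds a2 a4 = chevE6.bonds 2 4 ∧ a4 ≠ a3 ∧ chevE6.bonds a3 a4 = chevE6.bonds 3 4) → ∀ a5 : Fin chevE6.rank, (a5 ≠ a0 ∧ chevE6.bonds a0 a5 = chevE6.bonds 0 5 ∧ a5 ≠ a1 ∧ chevE6.bonds a1 a5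 = chevE6.bonds 1 5 ∧ a5 ≠ a2 ∧ chevE6.bonds a2 a5 = chevE6.bonds 2 5 ∧ a5 ≠ a3 ∧ chevE6.bonds a3 a5 = chevE6.bonds 3 5 ∧ a5 ≠ a4 ∧ chevE6.bonds a4 a5 = chevE6.bonds 4 5) → (a0.val = 0 ∧ a1.val = 1 ∧ a2.val = 2 ∧ a3.val = 3 ∧ a4.val = 4 ∧ a5.val = 5) ∨ (a0.val = 5 ∧ a1.val = 1 ∧ a2.val = 4 ∧ a3.val = 3 ∧ a4.val = 2 ∧ a5.val = 0) := by decide +kernel
  let n0 : Fin chevE6.rank := ⟨0, by decide⟩
  let n1 : Fin chevE6.rank := ⟨1, by decide⟩
  let n2 : Fin chevE6.rank := ⟨2, by decide⟩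
  let n3 : Fin chevE6.rank := ⟨3, by decide⟩
  let n4 : Fin chevE6.rank := ⟨4, by decide⟩
  let n5 : Fin chevE6.rank := ⟨5, by decide⟩
  have h0_1 : π n1 ≠ π n0 := fun e => absurd (π.injective e) (by decide)
  have h0_2 : π n2 ≠ π n0 := fun e => absurd (π.injective e) (by decide)
  have h0_3 : π n3 ≠ π n0 := fun e => absurd (π.injective e) (by decide)
  have h0_4 : π n4 ≠ π n0 := fun e => absurd (π.injective e) (by decide)
  have h0_5 : π n5 ≠ π n0 := fun e => absurd (π.injective e) (by decide)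
  have h1_2 : π n2 ≠ π n1 := fun e => absurd (π.injective e) (by decide)
  have h1_3 : π n3 ≠ π n1 := fun e => absurd (π.injective e) (by decide)
  have h1_4 : π n4 ≠ π n1 := fun e => absurd (π.injective e) (by decide)
  have h1_5 : π n5 ≠ π n1 := fun e => absurd (π.injective e) (by decide)
  have h2_3 : π n3 ≠ π n2 := fun e => absurd (π.injective e) (by decide)
  have h2_4 : π n4 ≠ π n2 := fun e => absurd (π.injective e) (by decide)
  have h2_5 : π n5 ≠ π n2 := fun e => absurd (π.injective e) (by decide)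
  have h3_4 : π n4 ≠ π n3 := fun e => absurd (π.injective e) (by decide)
  have h3_5 : π n5 ≠ π n3 := fun e => absurd (π.injective e) (by decide)
  have h4_5 : π n5 ≠ π n4 := fun e => absurd (π.injective e) (by decide)
  have b0_1 := h n0 n1 (by decide)
  have b0_2 := h n0 n2 (by decide)
  have b0_3 := h n0 n3 (by decide)
  have b0_4 := h n0 n4 (by decide)
  have b0_5 := h n0 n5 (by decide)
  have b1_2 := h n1 n2 (by decide)
  have b1_3 := h n1 n3 (by decide)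
  have b1_4 := h n1 n4 (by decide)
  have b1_5 := h n1 n5 (by decide)
  have b2_3 := h n2 n3 (by decide)
  have b2_4 := h n2 n4 (by decide)
  have b2_5 := h n2 n5 (by decide)
  have b3_4 := h n3 n4 (by decide)
  have b3_5 := h n3 n5 (by decide)
  have b4_5 := h n4 n5 (by decide)
  have k := key (π n0) (π n1) ⟨h0_1, b0_1⟩ (π n2) ⟨h0_2, b0_2, h1_2, b1_2⟩ (π n3) ⟨h0_3, b0_3, h1_3, b1_3, h2_3, b2_3⟩ (π n4) ⟨h0_4, b0_4, h1_4, b1_4, h2_4, b2_4, h3_4, b3_4⟩ (π n5) ⟨h0_5, b0_5, h1_5, b1_5, h2_5, b2_5, h3_5, b3_5, h4_5, b4_5⟩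
  have hn : ∀ i : Fin chevE6.rank, i = n0 ∨ i = n1 ∨ i = n2 ∨ i = n3 ∨ i = n4 ∨ i = n5 := by decide
  rcases k with ⟨e0, e1, e2, e3, e4, e5⟩ | ⟨e0, e1, e2, e3, e4, e5⟩
  · left
    intro i
    rcases hn i with rfl | rfl | rfl | rfl | rfl | rfl
    · exact e0
    · exact e1
    · exact e2
    · exact e3
    · exact e4
    · exact e5
  · right; skip
    intro i
    rcases hn i with rfl | rfl | rfl | rfl | rfl | rfl
    · exact e0
    · exact e1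
    · exact e2
    · exact e3
    · exact e4
    · exact e5

/-- The symmetries of the diagram of type D4. -/
theorem symD4 (π : Equiv.Perm (Fin chevD4.rank)) (h : chevD4.IsDiagramSymmetry π) :
    (∀ i : Fin chevD4.rank, (π i).val = [0, 1, 2, 3].getD i 0) ∨ (∀ i : Fin chevD4.rank, (π i).val = [0, 1, 3, 2].getD i 0) ∨ (∀ i : Fin chevD4.rank, (π i).val = [2, 1, 0, 3].getD i 0) ∨ (∀ i : Fin chevD4.rank, (π i).val = [2, 1, 3, 0].getD i 0) ∨ (∀ i : Fin chevD4.rank, (π i).val = [3, 1, 0, 2].getD i 0) ∨ (∀ i : Fin chevD4.rank, (π i).val = [3, 1, 2, 0].getD i 0) := by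
  have key : ∀ a0 : Fin chevD4.rank, ∀ a1 : Fin chevD4.rank, (a1 ≠ a0 ∧ chevD4.bonds a0 a1 = chevD4.bonds 0 1) → ∀ a2 : Fin chevD4.rank, (a2 ≠ a0 ∧ chevD4.bonds a0 a2 = chevD4.bonds 0 2 ∧ a2 ≠ a1 ∧ chevD4.bonds a1 a2 = chevD4.bonds 1 2) → ∀ a3 : Fin chevD4.rank, (a3 ≠ a0 ∧ chevD4.bonds a0 a3 = chevD4.bonds 0 3 ∧ a3 ≠ a1 ∧ chevD4.bonds a1 a3 = chevD4.bonds 1 3 ∧ a3 ≠ a2 ∧ chevD4.bonds a2 a3 = chevD4.bonds 2 3) → (a0.val = 0 ∧ a1.val = 1 ∧ a2.val = 2 ∧ a3.val = 3) ∨ (a0.val = 0 ∧ a1.val = 1 ∧ a2.val = 3 ∧ a3.val = 2) ∨ (a0.val = 2 ∧ a1.val = 1 ∧ a2.val = 0 ∧ a3.val = 3) ∨ (a0.val = 2 ∧ a1.val = 1 ∧ a2.val = 3 ∧ a3.val = 0) ∨ (a0.val = 3 ∧ a1.val = 1 ∧ a2.val = 0 ∧ a3.val = 2) ∨ (a0.val = 3 ∧ a1.val = 1 ∧ a2.val = 2 ∧ a3.val = 0) := by decide +kernel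
  let n0 : Fin chevD4.rank := ⟨0, by decide⟩
  let n1 : Fin chevD4.rank := ⟨1, by decide⟩
  let n2 : Fin chevD4.rank := ⟨2, by decide⟩
  let n3 : Fin chevD4.rank := ⟨3, by decide⟩
  have h0_1 : π n1 ≠ π n0 := fun e => absurd (π.injective e) (by decide)
  have h0_2 : π n2 ≠ π n0 := fun e => absurd (π.injective e) (by decide)
  have h0_3 : π n3 ≠ π n0 := fun e => absurd (π.injective e) (by decide)
  have h1_2 : π n2 ≠ π n1 := fun e => absurd (π.injective e) (by decide)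
  have h1_3 : π n3 ≠ π n1 := fun e => absurd (π.injective e) (by decide)
  have h2_3 : π n3 ≠ π n2 := fun e => absurd (π.injective e) (by decide)
  have b0_1 := h n0 n1 (by decide)
  have b0_2 := h n0 n2 (by decide)
  have b0_3 := h n0 n3 (by decide)
  have b1_2 := h n1 n2 (by decide)
  have b1_3 := h n1 n3 (by decide)
  have b2_3 := h n2 n3 (by decide)
  have k := key (π n0) (π n1) ⟨h0_1, b0_1⟩ (π n2) ⟨h0_2, b0_2, h1_2, b1_2⟩ (π n3) ⟨h0_3, b0_3, h1_3, b1_3, h2_3, b2_3⟩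
  have hn : ∀ i : Fin chevD4.rank, i = n0 ∨ i = n1 ∨ i = n2 ∨ i = n3 := by decide
  rcases k with ⟨e0, e1, e2, e3⟩ | ⟨e0, e1, e2, e3⟩ | ⟨e0, e1, e2, e3⟩ | ⟨e0, e1, e2, e3⟩ | ⟨e0, e1, e2, e3⟩ | ⟨e0, e1, e2, e3⟩
  · left
    intro i
    rcases hn i with rfl | rfl | rfl | rfl
    · exact e0
    · exact e1
    · exact e2
    · exact e3
  · right; left
    intro i
    rcases hn i with rfl | rfl | rfl | rfl
    · exact e0
    · exact e1
    · exact e2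
    · exact e3
  · right; right; left
    intro i
    rcases hn i with rfl | rfl | rfl | rfl
    · exact e0
    · exact e1
    · exact e2
    · exact e3
  · right; right; right; left
    intro i
    rcases hn i with rfl | rfl | rfl | rfl
    · exact e0
    · exact e1
    · exact e2
    · exact e3
  · right; right; right; right; left
    intro i
    rcases hn i with rfl | rfl | rfl | rfl
    · exact e0
    · exact e1
    · exact e2
    · exact e3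
  · right; right; right; right; right; skip
    intro i
    rcases hn i with rfl | rfl | rfl | rfl
    · exact e0
    · exact e1
    · exact e2
    · exact e3

/-- The symmetries of the diagram of type F4. -/
theorem symF4 (π : Equiv.Perm (Fin chevF4.rank)) (h : chevF4.IsDiagramSymmetry π) :
    (∀ i : Fin chevF4.rank, (π i).val = [0, 1, 2, 3].getD i 0) ∨ (∀ i : Fin chevF4.rank, (π i).val = [3, 2, 1, 0].getD i 0) := by
  have key : ∀ a0 : Fin chevF4.rank, ∀ a1 : Fin chevF4.rank, (a1 ≠ a0 ∧ chevF4.bonds a0 a1 = chevF4.bonds 0 1) → ∀ a2 : Fin chevF4.rank, (a2 ≠ a0 ∧ chevF4.bonds a0 a2 = chevF4.bonds 0 2 ∧ a2 ≠ a1 ∧ chevF4.bonds a1 a2 = chevF4.bonds 1 2) → ∀ a3 : Fin chevF4.rank, (a3 ≠ a0 ∧ chevF4.bonds a0 a3 = chevF4.bonds 0 3 ∧ a3 ≠ a1 ∧ chevF4.bonds a1 a3 = chevF4.bonds 1 3 ∧ a3 ≠ a2 ∧ chevF4.bonds a2 a3 = chevF4.bonds 2 3) → (a0.val = 0 ∧ a1.val = 1 ∧ a2.val = 2 ∧ a3.val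 = 3) ∨ (a0.val = 3 ∧ a1.val = 2 ∧ a2.val = 1 ∧ a3.val = 0) := by decide +kernel
  let n0 : Fin chevF4.rank := ⟨0, by decide⟩
  let n1 : Fin chevF4.rank := ⟨1, by decide⟩
  let n2 : Fin chevF4.rank := ⟨2, by decide⟩
  let n3 : Fin chevF4.rank := ⟨3, by decide⟩
  have h0_1 : π n1 ≠ π n0 := fun e => absurd (π.injective e) (by decide)
  have h0_2 : π n2 ≠ π n0 := fun e => absurd (π.injective e) (by decide)
  have h0_3 : π n3 ≠ π n0 := fun e => absurd (π.injective e) (by decide)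
  have h1_2 : π n2 ≠ π n1 := fun e => absurd (π.injective e) (by decide)
  have h1_3 : π n3 ≠ π n1 := fun e => absurd (π.injective e) (by decide)
  have h2_3 : π n3 ≠ π n2 := fun e => absurd (π.injective e) (by decide)
  have b0_1 := h n0 n1 (by decide)
  have b0_2 := h n0 n2 (by decide)
  have b0_3 := h n0 n3 (by decide)
  have b1_2 := h n1 n2 (by decide)
  have b1_3 := h n1 n3 (by decide)
  have b2_3 := h n2 n3 (by decide)
  have k := key (π n0) (π n1) ⟨h0_1, b0_1⟩ (π n2) ⟨h0_2, b0_2, h1_2, b1_2⟩ (π n3) ⟨h0_3, b0_3, h1_3, b1_3, h2_3, b2_3⟩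
  have hn : ∀ i : Fin chevF4.rank, i = n0 ∨ i = n1 ∨ i = n2 ∨ i = n3 := by decide
  rcases k with ⟨e0, e1, e2, e3⟩ | ⟨e0, e1, e2, e3⟩
  · left
    intro i
    rcases hn i with rfl | rfl | rfl | rfl
    · exact e0
    · exact e1
    · exact e2
    · exact e3
  · right; skip
    intro i
    rcases hn i with rfl | rfl | rfl | rfl
    · exact e0
    · exact e1
    · exact e2
    · exact e3

/-- The symmetries of the diagram of type G2. -/
theorem symG2 (π : Equiv.Perm (Fin chevG2.rank)) (h : chevG2.IsDiagramSymmetry π) :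
    (∀ i : Fin chevG2.rank, (π i).val = [0, 1].getD i 0) ∨ (∀ i : Fin chevG2.rank, (π i).val = [1, 0].getD i 0) := by
  have key : ∀ a0 : Fin chevG2.rank, ∀ a1 : Fin chevG2.rank, (a1 ≠ a0 ∧ chevG2.bonds a0 a1 = chevG2.bonds 0 1) → (a0.val = 0 ∧ a1.val = 1) ∨ (a0.val = 1 ∧ a1.val = 0) := by decide +kernel
  let n0 : Fin chevG2.rank := ⟨0, by decide⟩
  let n1 : Fin chevG2.rank := ⟨1, by decide⟩
  have h0_1 : π n1 ≠ π n0 := fun e => absurd (π.injective e) (by decide)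
  have b0_1 := h n0 n1 (by decide)
  have k := key (π n0) (π n1) ⟨h0_1, b0_1⟩
  have hn : ∀ i : Fin chevG2.rank, i = n0 ∨ i = n1 := by decide
  rcases k with ⟨e0, e1⟩ | ⟨e0, e1⟩
  · left
    intro i
    rcases hn i with rfl | rfl
    · exact e0
    · exact e1
  · right; skip
    intro i
    rcases hn i with rfl | rfl
    · exact e0
    · exact e1

/-- The symmetries of the diagram of type B2. -/
theorem symB2 (π : Equiv.Perm (Fin chevB2.rank)) (h : chevB2.IsDiagramSymmetry π) :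
    (∀ i : Fin chevB2.rank, (π i).val = [0, 1].getD i 0) ∨ (∀ i : Fin chevB2.rank, (π i).val = [1, 0].getD i 0) := by
  have key : ∀ a0 : Fin chevB2.rank, ∀ a1 : Fin chevB2.rank, (a1 ≠ a0 ∧ chevB2.bonds a0 a1 = chevB2.bonds 0 1) → (a0.val = 0 ∧ a1.val = 1) ∨ (a0.val = 1 ∧ a1.val = 0) := by decide +kernel
  let n0 : Fin chevB2.rank := ⟨0, by decide⟩
  let n1 : Fin chevB2.rank := ⟨1, by decide⟩
  have h0_1 : π n1 ≠ π n0 := fun e => absurd (π.injective e) (by decide)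
  have b0_1 := h n0 n1 (by decide)
  have k := key (π n0) (π n1) ⟨h0_1, b0_1⟩
  have hn : ∀ i : Fin chevB2.rank, i = n0 ∨ i = n1 := by decide
  rcases k with ⟨e0, e1⟩ | ⟨e0, e1⟩
  · left
    intro i
    rcases hn i with rfl | rfl
    · exact e0
    · exact e1
  · right; skip
    intro i
    rcases hn i with rfl | rfl
    · exact e0
    · exact e1

end Cfsg.Agent.Lib.Chev
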