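/-
Automorphisms of Chevalley groups, eleventh step: the field automorphisms at the nodes, type by type.
-/
import Cfsg.Agent.Lib.Chev.Rank1All
import Cfsg.Agent.Lib.ChevAut.Decomp

set_option autoImplicit false
set_option maxRecDepth 100000
set_option maxHeartbeats 0

namespace Cfsg.Agent.Lib.Chev

open Cfsg.Lie

/-! ### The longest elements -/

theorem w0sG2 : W0s digG2.tbl chevG2 := ⟨w0G2, by decide +kernel, by decide +kernel, by decide +kernel⟩
theorem w0sB2 : W0s digB2.tbl chevB2 := ⟨w0B2, by decide +kernel, by decide +kernel, by decide +kernel⟩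
theorem w0sD4 : W0s digD4.tbl chevD4 := ⟨w0D4, by decide +kernel, by decide +kernel, by decide +kernel⟩
theorem w0sF4 : W0s digF4.tbl chevF4 := ⟨w0F4, by decide +kernel, by decide +kernel, by decide +kernel⟩
theorem w0sE6 : W0s digE6.tbl chevE6 := ⟨w0E6, by decide +kernel, by decide +kernel, by decide +kernel⟩
theorem w0sE7 : W0s digE7.tbl chevE7 := ⟨w0E7, by decide +kernel, by decide +kernel, by decide +kernel⟩
theorem w0sE8 : W0s digE8.tbl chevE8 := ⟨w0E8, by decide +kernel, by decide +kernel, by decide +kernel⟩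

/-! ### One root length -/

theorem slD4 : ∀ i j : Fin chevD4.rank, i ≠ j →
    slPair chevD4.nroots (chevD4.commTerms (chevD4.simple i) (chevD4.simple j)) (chevD4.bonds i j) = true := by
  decide +kernel
theorem slE6 : ∀ i j : Fin chevE6.rank, i ≠ j →
    slPair chevE6.nroots (chevE6.commTerms (chevE6.simple i) (chevE6.simple j)) (chevE6.bonds i j) = true := by
  decide +kernel
theorem slE7 : ∀ i j : Fin chevE7.rank, i ≠ j →
    slPair chevE7.nroots (chevE7.commTerms (chevE7.simple i) (chevE7.simple j)) (chevE7.bonds i j) = true := by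
  decide +kernel
theorem slE8 : ∀ i j : Fin chevE8.rank, i ≠ j →
    slPair chevE8.nroots (chevE8.commTerms (chevE8.simple i) (chevE8.simple j)) (chevE8.bonds i j) = true := by
  decide +kernel

theorem distD4 : ∀ j : Fin chevD4.rank, j ≠ ⟨1, by decide⟩ → ∃ i : Fin chevD4.rank,
    [1, 0, 1, 1].getD i 0 < [1, 0, 1, 1].getD j 0 ∧ chevD4.bonds i j ≠ 0 := by decide +kernel
theorem distE6 : ∀ j : Fin chevE6.rank, j ≠ ⟨3, by decide⟩ → ∃ i : Fin chevE6.rank,
    [2, 1, 1, 0, 1, 2].getD i 0 < [2, 1, 1, 0, 1, 2].getD j 0 ∧ chevE6.bonds i j ≠ 0 := by decide +kernel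
theorem distE7 : ∀ j : Fin chevE7.rank, j ≠ ⟨3, by decide⟩ → ∃ i : Fin chevE7.rank,
    [2, 1, 1, 0, 1, 2, 3].getD i 0 < [2, 1, 1, 0, 1, 2, 3].getD j 0 ∧ chevE7.bonds i j ≠ 0 := by decide +kernel
theorem distE8 : ∀ j : Fin chevE8.rank, j ≠ ⟨3, by decide⟩ → ∃ i : Fin chevE8.rank,
    [2, 1, 1, 0, 1, 2, 3, 4].getD i 0 < [2, 1, 1, 0, 1, 2, 3, 4].getD j 0 ∧ chevE8.bonds i j ≠ 0 := by decide +kernel

theorem longD4 : ∀ i : Fin chevD4.rank, chevD4.isLong (chevD4.simple i) = false := by decide +kernel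
theorem longE6 : ∀ i : Fin chevE6.rank, chevE6.isLong (chevE6.simple i) = false := by decide +kernel
theorem longE7 : ∀ i : Fin chevE7.rank, chevE7.isLong (chevE7.simple i) = false := by decide +kernel
theorem longE8 : ∀ i : Fin chevE8.rank, chevE8.isLong (chevE8.simple i) = false := by decide +kernel

/-! ### Two root lengths -/

theorem headG2 : ∀ i j : Fin chevG2.rank, i ≠ j →
    headPair chevG2.nroots (chevG2.commTerms (chevG2.simple i) (chevG2.simple j)) (chevG2.bonds i j) = true := by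
  decide +kernel
theorem headB2 : ∀ i j : Fin chevB2.rank, i ≠ j →
    headPair chevB2.nroots (chevB2.commTerms (chevB2.simple i) (chevB2.simple j)) (chevB2.bonds i j) = true := by
  decide +kernel
theorem headF4 : ∀ i j : Fin chevF4.rank, i ≠ j →
    headPair chevF4.nroots (chevF4.commTerms (chevF4.simple i) (chevF4.simple j)) (chevF4.bonds i j) = true := by
  decide +kernel

theorem distG2 : ∀ j : Fin chevG2.rank, j ≠ ⟨0, by decide⟩ → ∃ i : Fin chevG2.rank,
    [0, 1].getD i 0 < [0, 1].getD j 0 ∧ chevG2.bonds i j ≠ 0 := by decide +kernel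
theorem distB2 : ∀ j : Fin chevB2.rank, j ≠ ⟨0, by decide⟩ → ∃ i : Fin chevB2.rank,
    [0, 1].getD i 0 < [0, 1].getD j 0 ∧ chevB2.bonds i j ≠ 0 := by decide +kernel
theorem distF4 : ∀ j : Fin chevF4.rank, j ≠ ⟨0, by decide⟩ → ∃ i : Fin chevF4.rank,
    [0, 1, 2, 3].getD i 0 < [0, 1, 2, 3].getD j 0 ∧ chevF4.bonds i j ≠ 0 := by decide +kernel

theorem permF4 : ∀ π : Equiv.Perm (Fin chevF4.rank),
    (∀ i j, i ≠ j → (chevF4.bonds (π i) (π j) = 0 ↔ chevF4.bonds i j = 0)) →
      (∀ i, π i = i) ∨ (∀ i, (π i).val = 3 - i.val) := by decide +kernel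

theorem permB2 : ∀ π : Equiv.Perm (Fin chevB2.rank), (∀ i, π i = i) ∨ (∀ i, (π i).val = 1 - i.val) := by decide +kernel
theorem permG2 : ∀ π : Equiv.Perm (Fin chevG2.rank), (∀ i, π i = i) ∨ (∀ i, (π i).val = 1 - i.val) := by decide +kernel

section

variable {F : Type*} [Field F]

theorem tauD4 (hG : digD4.tbl.Good2 chevD4) {θ : ↥(chevD4.group F) ≃* ↥(chevD4.group F)}
    {π : Equiv.Perm (Fin chevD4.rank)} {c : Fin chevD4.rank → F} {τ : Fin chevD4.rank → (F ≃+* F)}
    (h : hG.Form θ π c τ) : TauOK F chevD4 π τ :=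
  h.tauOK_sl slD4 _ _ distD4 longD4

theorem tauE6 (hG : digE6.tbl.Good2 chevE6) {θ : ↥(chevE6.group F) ≃* ↥(chevE6.group F)}
    {π : Equiv.Perm (Fin chevE6.rank)} {c : Fin chevE6.rank → F} {τ : Fin chevE6.rank → (F ≃+* F)}
    (h : hG.Form θ π c τ) : TauOK F chevE6 π τ :=
  h.tauOK_sl slE6 _ _ distE6 longE6

theorem tauE7 (hG : digE7.tbl.Good2 chevE7) {θ : ↥(chevE7.group F) ≃* ↥(chevE7.group F)}
    {π : Equiv.Perm (Fin chevE7.rank)} {c : Fin chevE7.rank → F} {τ : Fin chevE7.rank → (F ≃+* F)}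
    (h : hG.Form θ π c τ) : TauOK F chevE7 π τ :=
  h.tauOK_sl slE7 _ _ distE7 longE7

theorem tauE8 (hG : digE8.tbl.Good2 chevE8) {θ : ↥(chevE8.group F) ≃* ↥(chevE8.group F)}
    {π : Equiv.Perm (Fin chevE8.rank)} {c : Fin chevE8.rank → F} {τ : Fin chevE8.rank → (F ≃+* F)}
    (h : hG.Form θ π c τ) : TauOK F chevE8 π τ :=
  h.tauOK_sl slE8 _ _ distE8 longE8

theorem tauB2 (hG : digB2.tbl.Good2 chevB2) {θ : ↥(chevB2.group F) ≃* ↥(chevB2.group F)}
    {π : Equiv.Perm (Fin chevB2.rank)} {c : Fin chevB2.rank → F} {τ : Fin chevB2.rank → (F ≃+* F)}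
    (h : hG.Form θ π c τ) : TauOK F chevB2 π τ := by
  rcases permB2 π with hπ | hπ
  · exact h.tauOK_id hπ headB2 _ _ distB2
  let n0 : Fin chevB2.rank := ⟨0, by decide⟩
  let n1 : Fin chevB2.rank := ⟨1, by decide⟩
  have h0 : π n0 = n1 := Fin.ext (hπ n0)
  have h1 : π n1 = n0 := Fin.ext (hπ n1)
  obtain ⟨h2, hsq⟩ := h.tau_swap2 (a := n1) (b := n0) (by decide) h1 h0 (k₁ := 6) (k₂ := 7) (by decide +kernel)
    (by decide +kernel) (by decide +kernel) (by decide) (c₁ := 1) (c₂ := -1) (d₁ := -1) (d₂ := -1) (by decide +kernel)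
    (by decide +kernel) (Or.inr rfl)
  have hchar : ringChar F = 2 := CharP.ringChar_of_prime_eq_zero Nat.prime_two (by exact_mod_cast h2)
  have hn : ∀ i : Fin chevB2.rank, i = n0 ∨ i = n1 := by decide
  refine ⟨?_, τ n1, ?_⟩
  · intro i j hij
    rw [hπ i, hπ j]
    revert i j
    decide +kernel
  · intro i t
    rcases hn i with rfl | rfl
    · rw [h0, hchar, hsq, show chevB2.graphExp 2 n0 n1 = 2 by decide +kernel, pow_two]
    · rw [h1, show chevB2.graphExp (ringChar F) n1 n0 = 1 by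
        unfold ChevalleyDatum.graphExp
        rw [if_neg (by decide +kernel)], pow_one]

theorem tauF4 (hG : digF4.tbl.Good2 chevF4) {θ : ↥(chevF4.group F) ≃* ↥(chevF4.group F)}
    {π : Equiv.Perm (Fin chevF4.rank)} {c : Fin chevF4.rank → F} {τ : Fin chevF4.rank → (F ≃+* F)}
    (h : hG.Form θ π c τ) : TauOK F chevF4 π τ := by
  rcases permF4 π (fun i j hij => h.bonds_iff headF4 hij) with hπ | hπ
  · exact h.tauOK_id hπ headF4 _ _ distF4
  let n0 : Fin chevF4.rank := ⟨0, by decide⟩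
  let n1 : Fin chevF4.rank := ⟨1, by decide⟩
  let n2 : Fin chevF4.rank := ⟨2, by decide⟩
  let n3 : Fin chevF4.rank := ⟨3, by decide⟩
  have h0 : π n0 = n3 := Fin.ext (hπ n0)
  have h1 : π n1 = n2 := Fin.ext (hπ n1)
  have h2' : π n2 = n1 := Fin.ext (hπ n2)
  have h3 : π n3 = n0 := Fin.ext (hπ n3)
  have e01 : τ n0 = τ n1 := h.tau_single (a := n0) (b := n1) (by decide) (k := 34) (k' := 26) (c₁ := -1) (c₂ := 1)
    (by decide +kernel) (by rw [h0, h1]; decide +kernel) (Or.inl rfl)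
  have e23 : τ n2 = τ n3 := h.tau_single (a := n2) (b := n3) (by decide) (k := 26) (k' := 34) (c₁ := -1) (c₂ := 1)
    (by decide +kernel) (by rw [h2', h3]; decide +kernel) (Or.inl rfl)
  obtain ⟨h2, hsq⟩ := h.tau_swap2 (a := n2) (b := n1) (by decide) h2' h1 (k₁ := 28) (k₂ := 30) (by decide +kernel)
    (by decide +kernel) (by decide +kernel) (by decide) (c₁ := 1) (c₂ := -1) (d₁ := -1) (d₂ := -1) (by decide +kernel)
    (by decide +kernel) (Or.inr rfl)
  have hchar : ringChar F = 2 := CharP.ringChar_of_prime_eq_zero Nat.prime_two (by exact_mod_cast h2)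
  have hn : ∀ i : Fin chevF4.rank, i = n0 ∨ i = n1 ∨ i = n2 ∨ i = n3 := by decide
  refine ⟨?_, τ n2, ?_⟩
  · intro i j hij
    rw [hπ i, hπ j]
    revert i j
    decide +kernel
  · intro i t
    rcases hn i with rfl | rfl | rfl | rfl
    · rw [h0, hchar, e01, hsq, show chevF4.graphExp 2 n0 n3 = 2 by decide +kernel, pow_two]
    · rw [h1, hchar, hsq, show chevF4.graphExp 2 n1 n2 = 2 by decide +kernel, pow_two]
    · rw [h2', show chevF4.graphExp (ringChar F) n2 n1 = 1 by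
        unfold ChevalleyDatum.graphExp
        rw [if_neg (by decide +kernel)], pow_one]
    · rw [h3, ← e23, show chevF4.graphExp (ringChar F) n3 n0 = 1 by
        unfold ChevalleyDatum.graphExp
        rw [if_neg (by decide +kernel)], pow_one]

/-- The field automorphisms of `G₂` when the two lengths are exchanged. -/
theorem tau_swap_G2 (hG : digG2.tbl.Good2 chevG2) {θ : ↥(chevG2.group F) ≃* ↥(chevG2.group F)}
    {π : Equiv.Perm (Fin chevG2.rank)} {c : Fin chevG2.rank → F} {τ : Fin chevG2.rank → (F ≃+* F)}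
    (h : hG.Form θ π c τ) {a b : Fin chevG2.rank} (ha : a.val = 1) (hb : b.val = 0) (h0 : π a = b) (h1 : π b = a) :
    (3 : F) = 0 ∧ ∀ u, τ b u = τ a u * τ a u * τ a u := by
  have hn : (chevG2.nroots) = 12 := rfl
  have ep : chevG2.simple a = 6 := by rw [ha]; rfl
  have eq : chevG2.simple b = 7 := by rw [hb]; rfl
  have l6 : (6 : ℕ) < chevG2.nroots := by decide
  have l7 : (7 : ℕ) < chevG2.nroots := by decide
  have l8 : (8 : ℕ) < chevG2.nroots := by decide
  have l9 : (9 : ℕ) < chevG2.nroots := by decide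
  have l10 : (10 : ℕ) < chevG2.nroots := by decide
  have l11 : (11 : ℕ) < chevG2.nroots := by decide
  have ra7 : digG2.tbl.refl a 7 = 8 := by rw [ha]; decide +kernel
  have rb6 : digG2.tbl.refl b 6 = 10 := by rw [hb]; decide +kernel
  have rb8 : digG2.tbl.refl b 8 = 9 := by rw [hb]; decide +kernel
  have ra10 : digG2.tbl.refl a 10 = 11 := by rw [ha]; decide +kernel
  have b0 := h.base_pos a
  have b1 := h.base_pos b
  rw [h0, ep, eq] at b0
  rw [h1, ep, eq] at b1
  have e810 := h.step a l7 l6 b1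
  have e108 := h.step b l6 l7 b0
  rw [h0, ra7, rb6] at e810
  rw [h1, ra7, rb6] at e108
  have e911 := h.step b l8 l10 e810
  have e119 := h.step a l10 l8 e108
  rw [h1, ra10, rb8] at e911
  rw [h0, ra10, rb8] at e119
  obtain ⟨f₁, hf₁⟩ := Tbl.Good2.Form.exists_param_xT (hG := hG) l8 l10 e810
  obtain ⟨f₂, hf₂⟩ := Tbl.Good2.Form.exists_param_xT (hG := hG) l9 l11 e911
  obtain ⟨f₃, hf₃⟩ := Tbl.Good2.Form.exists_param_xT (hG := hG) l10 l8 e108
  obtain ⟨f₄, hf₄⟩ := Tbl.Good2.Form.exists_param_xT (hG := hG) l11 l9 e119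
  have pa : ∀ t, θ (hG.xG l6 t) = hG.xG l7 (c a * τ a t) := by
    intro t
    have := h.pos a t
    rw [h0, ep, eq, hG.xT_of_lt l6, hG.xT_of_lt l7] at this
    exact this
  have pb : ∀ t, θ (hG.xG l7 t) = hG.xG l6 (c b * τ b t) := by
    intro t
    have := h.pos b t
    rw [h1, ep, eq, hG.xT_of_lt l6, hG.xT_of_lt l7] at this
    exact this
  refine ⟨?_, ?_⟩
  · -- a relation which holds only in characteristic three
    have e1 := hG.comm_G l8 l7 (by decide) (by decide +kernel) (1 : F) 1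
    have e2 := hG.comm_G l10 l6 (by decide) (by decide +kernel) (f₁ 1) (c b * τ b 1)
    have e3 := congrArg θ e1
    rw [hG.xT_of_lt l7 1, map_mul, map_mul, map_mul, hf₁, pb, ← hG.xT_of_lt l6, e2] at e3
    have e4 := mul_left_cancel e3
    unfold ChevalleyDatum.commWord at e4
    rw [show chevG2.commTerms 10 6 = [(11, -1, 1, 1)] by decide +kernel,
      show chevG2.commTerms 8 7 = [(9, 2, 1, 1), (11, 3, 2, 1), (10, -3, 1, 2)] by decide +kernel] at e4
    simp only [List.map_cons, List.map_nil, hG.wP_cons, hG.wP_nil, mul_one, pow_one, map_mul, map_one, hf₂, hf₃,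
      hf₄] at e4
    have e5 := congrArg Subtype.val e4
    simp only [Subgroup.coe_mul, hG.xT_of_lt l11, hG.xT_of_lt l9, hG.xT_of_lt l8, Tbl.Good2.xG_coe] at e5
    have hp8 : chevG2.nroots / 2 ≤ 8 := by decide
    have hm₉ : ∀ v : F, hG.xU l9 v ∈ Uge chevG2 F (8 + 1) := fun v => hG.xU_mem_Uge l9 (by decide) le_rfl v
    have hm₁₁ : ∀ v : F, hG.xU l11 v ∈ Uge chevG2 F (8 + 1) := fun v => hG.xU_mem_Uge l11 (by decide) (by decide) v
    have e6 := hG.coord_eq l8 hp8 (Subgroup.mul_mem _ (hm₁₁ _) (hm₉ _)) (Subgroup.one_mem _) (hm₁₁ _) (B' := 0)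
      (u₃ := hG.xU l11 (((-1 : ℤ) : F) * -f₁ 1 * c b))
      (B := f₃ (((-3 : ℤ) : F) * -1 * 1 ^ 2)) (by
        rw [mul_one, show hG.xU l8 (0 : F) = 1 from hG.xU_zero l8, one_mul, mul_assoc]
        exact e5.symm)
    have e7 := hf₃ (((-3 : ℤ) : F) * -1 * 1 ^ 2)
    rw [e6, hG.xT_of_lt l8, hG.xG_zero, ← map_one θ] at e7
    have e8 := θ.injective e7
    rw [hG.xT_of_lt l10, ← hG.xG_zero l10] at e8
    have e9 := hG.xG_inj l10 e8
    push_cast at e9
    linear_combination e9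
  · refine hG.tau_of_swap3 l6 l7 l8 l9 l10 l11 (by decide) (by decide) (by decide) (by decide) (by decide)
      (by decide +kernel) (by decide) (by decide +kernel) θ (h.c_ne a) (h.c_ne b) pa pb f₁ f₂ f₃ f₄ hf₁ hf₂ hf₃ hf₄
      (c₁ := 1) (c₂ := 1) (c₃ := -1) (c₄ := -2) (d₁ := -1) (d₂ := 1) (d₃ := 1) (d₄ := 1) (by decide +kernel)
      (by decide +kernel) (int_unit_ne (Or.inr rfl))

theorem tauG2 (hG : digG2.tbl.Good2 chevG2) {θ : ↥(chevG2.group F) ≃* ↥(chevG2.group F)}
    {π : Equiv.Perm (Fin chevG2.rank)} {c : Fin chevG2.rank → F} {τ : Fin chevG2.rank → (F ≃+* F)}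
    (h : hG.Form θ π c τ) : TauOK F chevG2 π τ := by
  rcases permG2 π with hπ | hπ
  · exact h.tauOK_id hπ headG2 _ _ distG2
  let n0 : Fin chevG2.rank := ⟨0, by decide⟩
  let n1 : Fin chevG2.rank := ⟨1, by decide⟩
  have h0 : π n0 = n1 := Fin.ext (hπ n0)
  have h1 : π n1 = n0 := Fin.ext (hπ n1)
  obtain ⟨h3, hsq⟩ := tau_swap_G2 hG h (a := n1) (b := n0) rfl rfl h1 h0
  have hchar : ringChar F = 3 := CharP.ringChar_of_prime_eq_zero Nat.prime_three (by exact_mod_cast h3)
  have hn : ∀ i : Fin chevG2.rank, i = n0 ∨ i = n1 := by decide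
  refine ⟨?_, τ n1, ?_⟩
  · intro i j hij
    rw [hπ i, hπ j]
    revert i j
    decide +kernel
  · intro i t
    rcases hn i with rfl | rfl
    · rw [h0, hchar, hsq, show chevG2.graphExp 3 n0 n1 = 3 by decide +kernel, pow_three, mul_assoc]
    · rw [h1, show chevG2.graphExp (ringChar F) n1 n0 = 1 by
        unfold ChevalleyDatum.graphExp
        rw [if_neg (by decide +kernel)], pow_one]

end

end Cfsg.Agent.Lib.Chev
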