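/-
The order of the outer automorphism groups of the Chevalley groups of types `E₆`, `E₇`, `E₈`.
-/
import Cfsg.Agent.Lib.ChevAut.OutGen
import Cfsg.Agent.Lib.ChevAut.TauT
import Cfsg.Agent.Lib.ChevAut.SymT
import Cfsg.Agent.Lib.Chev.GrE6
import Cfsg.Agent.Lib.Chev.SmithAll

set_option autoImplicit false
set_option maxRecDepth 100000

namespace Cfsg.Agent.Lib.Chev

open Cfsg.Lie

theorem listE8 : ∀ i : Fin chevE8.rank, [0, 1, 2, 3, 4, 5, 6, 7].getD i 0 = i.val := by decide +kernel
theorem listE7 : ∀ i : Fin chevE7.rank, [0, 1, 2, 3, 4, 5, 6].getD i 0 = i.val := by decide +kernel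
theorem listE6 : ∀ i : Fin chevE6.rank, [0, 1, 2, 3, 4, 5].getD i 0 = i.val := by decide +kernel

section

variable {F : Type*} [Field F]

/-- The permutation of the nodes of `E₆`. -/
noncomputable def revE6 : Equiv.Perm (Fin chevE6.rank) := grE6.rhE

lemma revE6_val (i : Fin chevE6.rank) : (revE6 i).val = [5, 1, 4, 3, 2, 0].getD i 0 := by
  show rhE6 i = _
  revert i
  decide +kernel

theorem adm_revE6 : good3E6.toGood2.Adm F revE6 := by
  refine good3E6.toGood2.adm_of_graphD grE6 revE6 (fun i => ?_) (by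
    show ∀ r, r < chevE6.nroots → (chevE6.nroots / 2 ≤ r ↔ chevE6.nroots / 2 ≤ barE6 r)
    decide +kernel) (fun i => graphExp_of_not_long _ _ _ _ (longE6 _))
  have h := grE6_simple i i.2
  rw [← revE6_val i] at h
  exact h

theorem card_admE8 : Nat.card {π : Equiv.Perm (Fin chevE8.rank) // good3E8.toGood2.Adm F π} = 1 := by
  have hone : ∀ π : {π : Equiv.Perm (Fin chevE8.rank) // good3E8.toGood2.Adm F π}, π = ⟨1, good3E8.toGood2.adm_one⟩ := by
    rintro ⟨π, hπ⟩
    apply Subtype.ext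
    apply Equiv.ext
    intro i
    apply Fin.ext
    have h := symE8 π (good3E8.toGood2.sym_of_adm longE8 (fun _ _ _ _ h => tauE8 _ h) hπ) i
    rw [h]
    exact listE8 i
  haveI : Unique {π : Equiv.Perm (Fin chevE8.rank) // good3E8.toGood2.Adm F π} :=
    ⟨⟨⟨1, good3E8.toGood2.adm_one⟩⟩, hone⟩
  exact Nat.card_unique

theorem card_admE7 : Nat.card {π : Equiv.Perm (Fin chevE7.rank) // good3E7.toGood2.Adm F π} = 1 := by
  have hone : ∀ π : {π : Equiv.Perm (Fin chevE7.rank) // good3E7.toGood2.Adm F π}, π = ⟨1, good3E7.toGood2.adm_one⟩ := by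
    rintro ⟨π, hπ⟩
    apply Subtype.ext
    apply Equiv.ext
    intro i
    apply Fin.ext
    have h := symE7 π (good3E7.toGood2.sym_of_adm longE7 (fun _ _ _ _ h => tauE7 _ h) hπ) i
    rw [h]
    exact listE7 i
  haveI : Unique {π : Equiv.Perm (Fin chevE7.rank) // good3E7.toGood2.Adm F π} :=
    ⟨⟨⟨1, good3E7.toGood2.adm_one⟩⟩, hone⟩
  exact Nat.card_unique

theorem card_admE6 : Nat.card {π : Equiv.Perm (Fin chevE6.rank) // good3E6.toGood2.Adm F π} = 2 := by
  rw [Nat.card_eq_two_iff]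
  refine ⟨⟨1, good3E6.toGood2.adm_one⟩, ⟨revE6, adm_revE6⟩, ?_, ?_⟩
  · intro e
    have e1 : (1 : Equiv.Perm (Fin chevE6.rank)) = revE6 := congrArg Subtype.val e
    have e2 := revE6_val ⟨0, by decide⟩
    rw [← e1] at e2
    exact absurd e2 (by decide +kernel)
  · ext ⟨π, hπ⟩
    simp only [Set.mem_insert_iff, Set.mem_singleton_iff, Set.mem_univ, iff_true]
    rcases symE6 π (good3E6.toGood2.sym_of_adm longE6 (fun _ _ _ _ h => tauE6 _ h) hπ) with h | h
    · left
      apply Subtype.ext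
      apply Equiv.ext
      intro i
      apply Fin.ext
      rw [h]
      exact listE6 i
    · right
      apply Subtype.ext
      apply Equiv.ext
      intro i
      apply Fin.ext
      rw [h, revE6_val]

private lemma card_sub_one_pos [Fintype F] : 0 < Fintype.card F - 1 := by
  have := Fintype.one_lt_card (α := F)
  omega

/-- The order of `Out(E₈(q))`. -/
theorem card_outE8 [Fintype F] (p f : ℕ) [Fact p.Prime] [CharP F p] (hF : Fintype.card F = p ^ f) :
    Nat.card (Cfsg.Out ↥(chevE8.group F)) = f := by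
  have h1 := good3E8.card_out_mul (F := F) (by decide) rank1E8 w0sE8 (fun _ _ _ _ h => tauE8 _ h)
  have h2 := card_H_list (F := F) hF (chevE8, 1) (by simp)
  simp only [one_mul] at h2
  rw [card_admE8, one_mul, Nat.card_eq_fintype_card (α := F), hF, ← h2, card_ringAut p f hF, mul_comm] at h1
  have hpos : 0 < Nat.card (chevE8.diagonalSubgroup F) := by
    rw [h2]
    exact pow_pos (by rw [← hF]; exact card_sub_one_pos) _
  exact Nat.eq_of_mul_eq_mul_left hpos h1

/-- The order of `Out(E₇(q))`. -/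
theorem card_outE7 [Fintype F] (p f : ℕ) [Fact p.Prime] [CharP F p] (hF : Fintype.card F = p ^ f) :
    Nat.card (Cfsg.Out ↥(chevE7.group F)) = Nat.gcd 2 (p ^ f - 1) * f := by
  have h1 := good3E7.card_out_mul (F := F) (by decide) rank1E7 w0sE7 (fun _ _ _ _ h => tauE7 _ h)
  have h2 := card_H_list (F := F) hF (chevE7, Nat.gcd 2 (p ^ f - 1)) (by simp)
  simp only at h2
  rw [card_admE7, one_mul, Nat.card_eq_fintype_card (α := F), hF, ← h2, card_ringAut p f hF] at h1
  have hpos : 0 < Nat.card (chevE7.diagonalSubgroup F) := by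
    have h3 : 0 < (p ^ f - 1) ^ chevE7.rank := pow_pos (by rw [← hF]; exact card_sub_one_pos) _
    rw [← h2] at h3
    exact Nat.pos_of_mul_pos_left h3 
  apply Nat.eq_of_mul_eq_mul_right hpos
  rw [h1]
  ring

/-- The order of `Out(E₆(q))`. -/
theorem card_outE6 [Fintype F] (p f : ℕ) [Fact p.Prime] [CharP F p] (hF : Fintype.card F = p ^ f) :
    Nat.card (Cfsg.Out ↥(chevE6.group F)) = 2 * Nat.gcd 3 (p ^ f - 1) * f := by
  have h1 := good3E6.card_out_mul (F := F) (by decide) rank1E6 w0sE6 (fun _ _ _ _ h => tauE6 _ h)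
  have h2 := card_H_list (F := F) hF (chevE6, Nat.gcd 3 (p ^ f - 1)) (by simp)
  simp only at h2
  rw [card_admE6, Nat.card_eq_fintype_card (α := F), hF, ← h2, card_ringAut p f hF] at h1
  have hpos : 0 < Nat.card (chevE6.diagonalSubgroup F) := by
    have h3 : 0 < (p ^ f - 1) ^ chevE6.rank := pow_pos (by rw [← hF]; exact card_sub_one_pos) _
    rw [← h2] at h3
    exact Nat.pos_of_mul_pos_left h3
  apply Nat.eq_of_mul_eq_mul_right hpos
  rw [h1]
  ring

end

end Cfsg.Agent.Lib.Chev
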