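/-
The order of the outer automorphism groups of the Chevalley groups of types `G₂` and `F₄`.
-/
import Cfsg.Agent.Lib.ChevAut.ExcT
import Cfsg.Agent.Lib.ChevAut.OutGen
import Cfsg.Agent.Lib.ChevAut.TauT
import Cfsg.Agent.Lib.ChevAut.FieldCard
import Cfsg.Agent.Lib.Chev.SmithAll

set_option autoImplicit false
set_option maxRecDepth 100000

namespace Cfsg.Agent.Lib.Chev

open Cfsg.Lie

namespace ExcD

variable {D : ChevalleyDatum} {T : Tbl} (E : ExcD D T)

/-- The permutation of the nodes. -/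
def rhoP : Equiv.Perm (Fin D.rank) where
  toFun i := ⟨E.rho i, E.rho_lt i i.2⟩
  invFun i := ⟨E.rho i, E.rho_lt i i.2⟩
  left_inv i := Fin.ext (E.rho_rho i i.2)
  right_inv i := Fin.ext (E.rho_rho i i.2)

variable {K : Type*} [Field K] [hp : Fact E.p.Prime] [CharP K E.p] (hG : T.Good2 D)

/-- The exceptional graph automorphism is standard, with the form of a graph automorphism. -/
theorem adm (hGen : E.Gen) (hperf : ∀ x : K, ∃ y : K, y ^ E.p = x)
    (hpos : ∀ r, r < D.nroots → (D.nroots / 2 ≤ r ↔ D.nroots / 2 ≤ E.tau r))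
    (hval : ∀ i, i < D.rank → E.tau (D.simple i) = D.simple (E.rho i) ∧ E.tau (D.neg (D.simple i)) = D.neg (D.simple (E.rho i)) ∧
      E.exp (D.simple i) = D.graphExp E.p i (E.rho i) ∧ E.exp (D.neg (D.simple i)) = D.graphExp E.p i (E.rho i)) :
    hG.Adm K E.rhoP := by
  obtain ⟨α, hα⟩ := E.exists_aut hG hGen hperf
  have hinv : ∀ r, r < D.nroots → ∀ t : K, ∃ y, α.symm (hG.xT r t) = hG.xT (E.tau r) y := by
    intro r hr t
    have hx' : ∃ y : K, y ^ E.exp (E.tau r) = t := by
      unfold exp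
      split_ifs
      · exact hperf t
      · exact ⟨t, pow_one t⟩
    obtain ⟨y, hy⟩ := hx'
    refine ⟨y, ?_⟩
    rw [MulEquiv.symm_apply_eq, hα _ (E.tau_lt r hr), hy, E.tau_tau r hr]
  have h2 : ∀ {r : ℕ}, r < D.nroots / 2 → r < D.nroots := fun hr => by
    have := hG.even_n
    omega
  have hneg : ∀ {r : ℕ}, r < D.nroots / 2 → E.tau r < D.nroots / 2 := fun {r} hr => by
    by_contra hn
    exact absurd ((hpos r (h2 hr)).2 (not_lt.1 hn)) (not_le.2 hr)
  have hchar : ringChar K = E.p := ringChar.eq K E.p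
  refine ⟨α, hG.isStd_of ?_ ?_ ?_ ?_, fun i t => ?_⟩
  · intro r hr hp t
    rw [hα r hr]
    exact hG.xT_mem_gU (E.tau_lt r hr) ((hpos r hr).1 hp) _
  · intro r hr t
    rw [hα r (h2 hr)]
    exact hG.xT_mem_gV (E.tau_lt r (h2 hr)) (hneg hr) _
  · intro r hr hp t
    obtain ⟨y, hy⟩ := hinv r hr t
    rw [hy]
    exact hG.xT_mem_gU (E.tau_lt r hr) ((hpos r hr).1 hp) _
  · intro r hr t
    obtain ⟨y, hy⟩ := hinv r (h2 hr) t
    rw [hy]
    exact hG.xT_mem_gV (E.tau_lt r (h2 hr)) (hneg hr) _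
  · obtain ⟨e1, e2, e3, e4⟩ := hval i i.2
    have hi : (E.rhoP i).val = E.rho i := rfl
    rw [hi, hchar]
    refine ⟨?_, ?_⟩
    · rw [hα _ (hG.simple_lt i.2), e1, e3]
    · rw [hα _ (hG.neg_lt (hG.simple_lt i.2)), e2, e4]

end ExcD

section

variable {F : Type*} [Field F] {D : ChevalleyDatum} {T : Tbl}

/-- A standard form from a graph form over a finite field. -/
theorem Tbl.Good2.form_of_graphForm [Finite F] (hG : T.Good2 D) {π : Equiv.Perm (Fin D.rank)}
    {g : ↥(D.group F) ≃* ↥(D.group F)} (h : hG.GraphForm π g) :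
    ∃ τ : Fin D.rank → (F ≃+* F), hG.Form g π (fun _ => 1) τ := by
  haveI : Fact (ringChar F).Prime := ⟨CharP.char_is_prime F (ringChar F)⟩
  haveI : ExpChar F (ringChar F) := ExpChar.prime (Fact.out)
  have hσ : ∀ i : Fin D.rank, ∃ τ : F ≃+* F, ∀ t, τ t = t ^ D.graphExp (ringChar F) i (π i) := by
    intro i
    unfold ChevalleyDatum.graphExp
    split_ifs
    · exact ⟨frobeniusEquiv F (ringChar F), fun t => frobenius_def _ t⟩
    · exact ⟨RingEquiv.refl F, fun t => (pow_one t).symm⟩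
  choose τ hτ using hσ
  refine ⟨τ, ⟨fun _ => one_ne_zero, fun i t => ?_, fun i t => ?_⟩⟩
  · rw [(h i t).1, one_mul, hτ]
  · rw [(h i t).2, inv_one, one_mul, hτ]

/-- A count of a subtype from the cases. -/
lemma card_subtype_of_cases {α : Type*} (P : α → Prop) (a b : α) (hab : a ≠ b) (ha : P a) (Q : Prop) [Decidable Q]
    (hb : Q → P b) (h : ∀ x, P x → x = a ∨ (Q ∧ x = b)) : Nat.card {x // P x} = if Q then 2 else 1 := by
  split_ifs with hQ
  · rw [Nat.card_eq_two_iff]
    refine ⟨⟨a, ha⟩, ⟨b, hb hQ⟩, fun e => hab (congrArg Subtype.val e), ?_⟩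
    ext ⟨x, hx⟩
    simp only [Set.mem_insert_iff, Set.mem_singleton_iff, Set.mem_univ, iff_true]
    rcases h x hx with rfl | ⟨_, rfl⟩
    · exact Or.inl rfl
    · exact Or.inr rfl
  · haveI : Unique {x // P x} := ⟨⟨⟨a, ha⟩⟩, fun ⟨x, hx⟩ => by
      rcases h x hx with rfl | ⟨hq, _⟩
      · rfl
      · exact absurd hq hQ⟩
    exact Nat.card_unique

/-- Over a field of characteristic `p` every element of a finite field is a `p`-th power. -/
lemma exists_pow_of_finite [Finite F] (p : ℕ) [Fact p.Prime] [CharP F p] (x : F) : ∃ y : F, y ^ p = x := by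
  haveI : ExpChar F p := ExpChar.prime (Fact.out)
  obtain ⟨y, hy⟩ := surjective_frobenius F p x
  exact ⟨y, by rw [← hy, frobenius_def]⟩

theorem adm_cases_G2 [Finite F] {π : Equiv.Perm (Fin chevG2.rank)} (h : good2G2.Adm F π) :
    π = 1 ∨ (ringChar F = 3 ∧ π = excG2.rhoP) := by
  rcases permG2 π with h1 | h1
  · exact Or.inl (Equiv.ext h1)
  · right
    let n0 : Fin chevG2.rank := ⟨0, by decide⟩
    let n1 : Fin chevG2.rank := ⟨1, by decide⟩
    have h0 : π n0 = n1 := Fin.ext (h1 n0)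
    have h2 : π n1 = n0 := Fin.ext (h1 n1)
    obtain ⟨g, -, hg⟩ := h
    obtain ⟨τ, hτ⟩ := good2G2.form_of_graphForm hg
    obtain ⟨h3, -⟩ := tau_swap_G2 good2G2 hτ (a := n1) (b := n0) rfl rfl h2 h0
    refine ⟨CharP.ringChar_of_prime_eq_zero Nat.prime_three (by exact_mod_cast h3), ?_⟩
    apply Equiv.ext
    intro i
    apply Fin.ext
    rw [h1 i]
    show _ = excG2.rho i
    revert i
    decide +kernel

theorem adm_cases_F4 [Finite F] {π : Equiv.Perm (Fin chevF4.rank)} (h : good2F4.Adm F π) :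
    π = 1 ∨ (ringChar F = 2 ∧ π = excF4.rhoP) := by
  obtain ⟨g, -, hg⟩ := h
  obtain ⟨τ, hτ⟩ := good2F4.form_of_graphForm hg
  rcases permF4 π (fun i j hij => hτ.bonds_iff headF4 hij) with h1 | h1
  · exact Or.inl (Equiv.ext h1)
  · right
    let n1 : Fin chevF4.rank := ⟨1, by decide⟩
    let n2 : Fin chevF4.rank := ⟨2, by decide⟩
    have h4 : π n1 = n2 := Fin.ext (h1 n1)
    have h2' : π n2 = n1 := Fin.ext (h1 n2)
    obtain ⟨h2, -⟩ := hτ.tau_swap2 (a := n2) (b := n1) (by decide) h2' h4 (k₁ := 28) (k₂ := 30) (by decide +kernel)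
      (by decide +kernel) (by decide +kernel) (by decide) (c₁ := 1) (c₂ := -1) (d₁ := -1) (d₂ := -1) (by decide +kernel)
      (by decide +kernel) (Or.inr rfl)
    refine ⟨CharP.ringChar_of_prime_eq_zero Nat.prime_two (by exact_mod_cast h2), ?_⟩
    apply Equiv.ext
    intro i
    apply Fin.ext
    rw [h1 i]
    show _ = excF4.rho i
    revert i
    decide +kernel

theorem card_admG2 [Finite F] (p : ℕ) [Fact p.Prime] [CharP F p] :
    Nat.card {π : Equiv.Perm (Fin chevG2.rank) // good2G2.Adm F π} = if p = 3 then 2 else 1 := by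
  have hr : ringChar F = p := ringChar.eq F p
  refine card_subtype_of_cases (fun π => good2G2.Adm F π) 1 excG2.rhoP ?_ good2G2.adm_one (p = 3) ?_ ?_
  · intro e
    have e2 : (excG2.rhoP (⟨0, by decide⟩ : Fin chevG2.rank)).val = 1 := by decide +kernel
    rw [← e] at e2
    exact absurd e2 (by decide)
  · rintro rfl
    haveI hp3 : Fact (excG2.p).Prime := ⟨Nat.prime_three⟩
    haveI hc : CharP F (excG2).p := ‹CharP F 3›
    exact excG2.adm good2G2 excG2_gen (exists_pow_of_finite _) excG2_pos excG2_rho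
  · intro π hπ
    rcases adm_cases_G2 hπ with h | ⟨h1, h2⟩
    · exact Or.inl h
    · exact Or.inr ⟨by rw [← hr, h1], h2⟩

theorem card_admF4 [Finite F] (p : ℕ) [Fact p.Prime] [CharP F p] :
    Nat.card {π : Equiv.Perm (Fin chevF4.rank) // good2F4.Adm F π} = if p = 2 then 2 else 1 := by
  have hr : ringChar F = p := ringChar.eq F p
  refine card_subtype_of_cases (fun π => good2F4.Adm F π) 1 excF4.rhoP ?_ good2F4.adm_one (p = 2) ?_ ?_
  · intro e
    have e2 : (excF4.rhoP (⟨0, by decide⟩ : Fin chevF4.rank)).val = 3 := by decide +kernel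
    rw [← e] at e2
    exact absurd e2 (by decide)
  · rintro rfl
    haveI hp3 : Fact (excF4.p).Prime := ⟨Nat.prime_two⟩
    haveI hc : CharP F (excF4).p := ‹CharP F 2›
    exact excF4.adm good2F4 excF4_gen (exists_pow_of_finite _) excF4_pos excF4_rho
  · intro π hπ
    rcases adm_cases_F4 hπ with h | ⟨h1, h2⟩
    · exact Or.inl h
    · exact Or.inr ⟨by rw [← hr, h1], h2⟩

theorem card_sub_one_pos' [Fintype F] : 0 < Fintype.card F - 1 := by
  have := Fintype.one_lt_card (α := F)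
  omega

/-- The order of `Out(G₂(q))`. -/
theorem card_outG2 [Fintype F] (p f : ℕ) [Fact p.Prime] [CharP F p] (hF : Fintype.card F = p ^ f) :
    Nat.card (Cfsg.Out ↥(chevG2.group F)) = (if p = 3 then 2 else 1) * f := by
  have h1 := good3G2.card_out_mul (F := F) (by decide) rank1G2 w0sG2 (fun _ _ _ _ h => tauG2 _ h)
  have h2 := card_H_list (F := F) hF (chevG2, 1) (by simp)
  simp only [one_mul] at h2
  have h3 := card_admG2 (F := F) p
  have h3' : Nat.card {π : Equiv.Perm (Fin chevG2.rank) // good3G2.toGood2.Adm F π} = if p = 3 then 2 else 1 := h3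
  rw [h3', Nat.card_eq_fintype_card (α := F), hF, ← h2, card_ringAut p f hF, mul_comm] at h1
  have hpos : 0 < Nat.card (chevG2.diagonalSubgroup F) := by
    rw [h2]
    exact pow_pos (by rw [← hF]; exact card_sub_one_pos') _
  apply Nat.eq_of_mul_eq_mul_left hpos
  rw [h1]
  ring

/-- The order of `Out(F₄(q))`. -/
theorem card_outF4 [Fintype F] (p f : ℕ) [Fact p.Prime] [CharP F p] (hF : Fintype.card F = p ^ f) :
    Nat.card (Cfsg.Out ↥(chevF4.group F)) = (if p = 2 then 2 else 1) * f := by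
  have h1 := good3F4.card_out_mul (F := F) (by decide) rank1F4 w0sF4 (fun _ _ _ _ h => tauF4 _ h)
  have h2 := card_H_list (F := F) hF (chevF4, 1) (by simp)
  simp only [one_mul] at h2
  have h3 := card_admF4 (F := F) p
  have h3' : Nat.card {π : Equiv.Perm (Fin chevF4.rank) // good3F4.toGood2.Adm F π} = if p = 2 then 2 else 1 := h3
  rw [h3', Nat.card_eq_fintype_card (α := F), hF, ← h2, card_ringAut p f hF, mul_comm] at h1
  have hpos : 0 < Nat.card (chevF4.diagonalSubgroup F) := by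
    rw [h2]
    exact pow_pos (by rw [← hF]; exact card_sub_one_pos') _
  apply Nat.eq_of_mul_eq_mul_left hpos
  rw [h1]
  ring

end

end Cfsg.Agent.Lib.Chev
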