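/-
The structure of the outer automorphism group of a Chevalley group: the diagonal automorphisms, the field automorphisms,
and the quotient by them, which embeds in the group of symmetries of the diagram.
-/
import Cfsg.Agent.Lib.ChevAut.OutGen
import Cfsg.Agent.Lib.ChevAut.CharStep

set_option autoImplicit false

namespace Cfsg.Agent.Lib.Chev

open Cfsg.Lie

section

variable {F : Type*} [Field F] {D : ChevalleyDatum} {T : Tbl}

namespace Tbl.Good3

variable (hG : T.Good3 D)
include hG

/-- An automorphism acting on root elements by scalars is standard, with the identity permutation of the nodes. -/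
lemma rep_of_scale [Finite F] {θ : ↥(D.group F) ≃* ↥(D.group F)} (c : Fin D.rank → Fˣ) (σ : F ≃+* F)
    (hp : ∀ (i : Fin D.rank) (t : F), θ (hG.xT (D.simple i) t) = hG.xT (D.simple i) ((c i : F) * σ t))
    (hn : ∀ (i : Fin D.rank) (t : F), θ (hG.xT (D.neg (D.simple i)) t) = hG.xT (D.neg (D.simple i)) (((c i)⁻¹ : Fˣ) * σ t)) :
    hG.toGood2.Rep θ 1 c σ := by
  intro i t
  simp only [Equiv.Perm.coe_one, id_eq, graphExp_self, pow_one]
  exact ⟨hp i t, hn i t⟩

/-- A diagonal automorphism acts on root elements by scalars. -/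
lemma diag_xT (hc : chkStep D = true) {d : ↥(D.group F) ≃* ↥(D.group F)} {χ : ℕ → Fˣ} (hχ : D.IsRootCharacter χ)
    (hd : ∀ g : ↥(D.group F), ((d g : GL D.Idx F) : Matrix D.Idx D.Idx F) =
      D.charDiag F χ * ((g : GL D.Idx F) : Matrix D.Idx D.Idx F) * D.charDiag F (fun r => (χ r)⁻¹))
    {r : ℕ} (hr : r < D.nroots) (t : F) : d (hG.toGood2.xT r t) = hG.toGood2.xT r ((χ r : F) * t) := by
  apply hG.toGood2.eq_xT
  rw [hd, hG.toGood2.xT_coe]
  have := charU_conj hG.toGood2.sane (isChar_of_root hG.toGood2.sane hc hχ) hr t (g := (hG.toGood2.xT r t : ↥(D.group F)))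
    (hG.toGood2.xT_coe r t)
  rw [← this, Units.val_mul, Units.val_mul, hG.toGood2.xT_coe]
  rfl

/-- A diagonal automorphism is standard. -/
lemma isStd_diag (hc : chkStep D = true) {d : ↥(D.group F) ≃* ↥(D.group F)} (h : D.IsDiagonalAut d) : IsStd d := by
  obtain ⟨χ, hχ, hd⟩ := h
  exact hG.toGood2.isStd_of_scale (fun r t => (χ r : F) * t) (fun r u => ⟨((χ r)⁻¹ : Fˣ) * u, by simp⟩)
    (fun r hr t => hG.diag_xT hc hχ hd hr t)

/-- A field automorphism is standard. -/
lemma isStd_field {f : ↥(D.group F) ≃* ↥(D.group F)} (h : D.IsFieldAut f) : IsStd f := by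
  obtain ⟨σ, hσ⟩ := h
  exact hG.toGood2.isStd_of_scale (fun _ t => σ t) (fun _ => σ.surjective)
    (fun r hr t => hG.toGood2.eq_xT (hσ _ r t hr (hG.toGood2.xT_coe r t)))

/-- The permutation of the nodes attached to a standard automorphism. -/
theorem exists_unique_perm (hε : T.chkRank1 = true) (hW : W0s T D) (θ : stdGroup D F) :
    ∃! π : Equiv.Perm (Fin D.rank), ∀ i : Fin D.rank,
      (gX D F (D.simple i)).map (θ : ↥(D.group F) ≃* ↥(D.group F)).toMonoidHom = gX D F (D.simple (π i)) := by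
  obtain ⟨π, hπ⟩ := hG.std_perm (F := F) hε hW θ.2
  refine ⟨π, fun i => (hπ i).1, fun π' h' => ?_⟩
  apply Equiv.ext
  intro i
  have e := (h' i).symm.trans (hπ i).1
  exact Fin.ext (hG.gX_simple_inj (π' i).2 (π i).2 e)

/-- The homomorphism from standard automorphisms to permutations of the nodes. -/
noncomputable def permOf (hε : T.chkRank1 = true) (hW : W0s T D) : stdGroup D F →* Equiv.Perm (Fin D.rank) :=
  MonoidHom.mk' (fun θ => (hG.exists_unique_perm hε hW θ).choose) (by
    intro a b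
    have ha := (hG.exists_unique_perm hε hW a).choose_spec.1
    have hb := (hG.exists_unique_perm hε hW b).choose_spec.1
    refine ((hG.exists_unique_perm hε hW (a * b)).choose_spec.2 _ fun i => ?_).symm
    show (gX D F (D.simple i)).map ((b : ↥(D.group F) ≃* ↥(D.group F)).trans (a : ↥(D.group F) ≃* ↥(D.group F))).toMonoidHom = _
    rw [map_trans_eq, hb, ha]
    rfl)

lemma permOf_spec (hε : T.chkRank1 = true) (hW : W0s T D) (θ : stdGroup D F) (i : Fin D.rank) :
    (gX D F (D.simple i)).map (θ : ↥(D.group F) ≃* ↥(D.group F)).toMonoidHom = gX D F (D.simple (hG.permOf hε hW θ i)) :=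
  (hG.exists_unique_perm hε hW θ).choose_spec.1 i

lemma permOf_eq (hε : T.chkRank1 = true) (hW : W0s T D) (θ : stdGroup D F) {π : Equiv.Perm (Fin D.rank)}
    (h : ∀ i : Fin D.rank, (gX D F (D.simple i)).map (θ : ↥(D.group F) ≃* ↥(D.group F)).toMonoidHom = gX D F (D.simple (π i))) :
    hG.permOf hε hW θ = π :=
  ((hG.exists_unique_perm hε hW θ).choose_spec.2 _ h).symm

/-- The permutation attached to an automorphism with parameters. -/
lemma permOf_of_rep (hε : T.chkRank1 = true) (hW : W0s T D) (θ : stdGroup D F) {π : Equiv.Perm (Fin D.rank)}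
    {c : Fin D.rank → Fˣ} {σ : F ≃+* F} (h : hG.toGood2.Rep (θ : MulAut ↥(D.group F)) π c σ) :
    hG.permOf hε hW θ = π := by
  apply Equiv.ext
  intro i
  have hp := hG.toGood2.simple_lt i.2
  have hp' := hG.toGood2.simple_lt (π i).2
  have hp'' := hG.toGood2.simple_lt (hG.permOf hε hW θ i).2
  have h1 := hG.permOf_spec hε hW θ i
  have h2 : (θ : ↥(D.group F) ≃* ↥(D.group F)) (hG.toGood2.xG hp 1) ∈ gX D F (D.simple (hG.permOf hε hW θ i)) := by
    rw [← h1]
    exact ⟨_, hG.toGood2.xG_mem_gX hp 1, rfl⟩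
  obtain ⟨u, hu⟩ := (hG.toGood2.mem_gX_iff hp'').1 h2
  have h3 := (h i 1).1
  rw [hG.toGood2.xT_of_lt hp, hG.toGood2.xT_of_lt hp', map_one, one_pow, mul_one] at h3
  rw [show ((θ : MulAut ↥(D.group F)) : ↥(D.group F) ≃* ↥(D.group F)) = (θ : ↥(D.group F) ≃* ↥(D.group F)) from rfl] at h3
  rw [h3] at hu
  have e := hG.toGood2.xU_root_unique hp' hp'' (Units.ne_zero (c (π i))) (congrArg Subtype.val hu)
  exact (Fin.ext (hG.simple_inj (π i).2 (hG.permOf hε hW θ i).2 e)).symm

/-- Inner standard automorphisms have the trivial permutation. -/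
lemma permOf_conj (hε : T.chkRank1 = true) (hW : W0s T D) {θ : stdGroup D F} (h : (θ : MulAut ↥(D.group F)) ∈ Cfsg.Inn ↥(D.group F)) :
    hG.permOf hε hW θ = 1 := by
  obtain ⟨x, hx⟩ := h
  have hs : IsStd (MulAut.conj x) := by
    have := θ.2
    rw [← hx] at this
    exact this
  have hH := hG.mem_H_of_isStd_conj hs
  refine hG.permOf_eq hε hW θ fun i => ?_
  have hp := hG.toGood2.simple_lt i.2
  obtain ⟨κ, hκ, e⟩ := hG.H_conj_x hH hp
  show (gX D F (D.simple i)).map (θ : ↥(D.group F) ≃* ↥(D.group F)).toMonoidHom = _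
  rw [show (θ : ↥(D.group F) ≃* ↥(D.group F)) = MulAut.conj x from hx.symm]
  exact hG.toGood2.map_conj_of_scalar hp hp hκ e

end Tbl.Good3

end

end Cfsg.Agent.Lib.Chev
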