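/-
The structure of the outer automorphism group of a Chevalley group, continued.
-/
import Cfsg.Agent.Lib.ChevAut.OutStruct

set_option autoImplicit false

namespace Cfsg.Agent.Lib.Chev

open Cfsg.Lie

section

variable {F : Type*} [Field F] {D : ChevalleyDatum} {T : Tbl}

/-- Diagonal automorphisms commute. -/
lemma diag_comm {d d' : ↥(D.group F) ≃* ↥(D.group F)} (h : D.IsDiagonalAut d) (h' : D.IsDiagonalAut d') :
    (d * d' : MulAut ↥(D.group F)) = d' * d := by
  obtain ⟨χ, -, hd⟩ := h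
  obtain ⟨χ', -, hd'⟩ := h'
  apply MulEquiv.ext
  intro g
  apply Subtype.ext
  apply Units.ext
  show ((d (d' g) : ↥(D.group F)) : GL D.Idx F).val = ((d' (d g) : ↥(D.group F)) : GL D.Idx F).val
  rw [hd, hd', hd', hd]
  simp only [charDiag_eq_diagM, Matrix.mul_assoc, diagM_mul, mul_comm]
  simp only [← Matrix.mul_assoc, diagM_mul, mul_comm]

/-- Elements of the closure of a commuting set commute. -/
lemma closure_comm {G : Type*} [Group G] {S : Set G} (hS : ∀ a ∈ S, ∀ b ∈ S, a * b = b * a) {a b : G}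
    (ha : a ∈ Subgroup.closure S) (hb : b ∈ Subgroup.closure S) : a * b = b * a := by
  have h := Subgroup.isMulCommutative_closure hS
  exact congrArg Subtype.val (h.is_comm.comm (⟨a, ha⟩ : Subgroup.closure S) ⟨b, hb⟩)

namespace Tbl.Good3

variable (hG : T.Good3 D)
include hG

/-- The map from standard automorphisms to outer automorphisms is onto. -/
lemma outHom_surj [Finite F] : Function.Surjective
    ((QuotientGroup.mk' (Cfsg.Inn ↥(D.group F))).comp (stdGroup D F).subtype) := by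
  intro q
  obtain ⟨θ, rfl⟩ := QuotientGroup.mk_surjective q
  obtain ⟨x, θ', hs, hx⟩ := exists_std hG θ
  refine ⟨⟨θ', hs⟩, ?_⟩
  have e : θ = MulAut.conj x * θ' := by
    ext y
    rw [hx]
    rfl
  show (QuotientGroup.mk θ' : Cfsg.Out ↥(D.group F)) = _
  have e0 : (QuotientGroup.mk (MulAut.conj x) : Cfsg.Out ↥(D.group F)) = 1 :=
    (QuotientGroup.eq_one_iff _).2 (MonoidHom.mem_range.2 ⟨x, rfl⟩)
  rw [e, QuotientGroup.mk_mul, e0, one_mul]

/-- Conjugates of diagonal automorphisms by standard ones. -/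
theorem diag_conj [Finite F] (hε : T.chkRank1 = true) (hW : W0s T D)
    (hτ : ∀ (θ : ↥(D.group F) ≃* ↥(D.group F)) (π : Equiv.Perm (Fin D.rank)) (c : Fin D.rank → F)
      (τ : Fin D.rank → (F ≃+* F)), hG.toGood2.Form θ π c τ → TauOK F D π τ)
    (hc : chkStep D = true) (θ : stdGroup D F) {d : ↥(D.group F) ≃* ↥(D.group F)} (hd : D.IsDiagonalAut d) :
    D.IsDiagonalAut ((θ : MulAut ↥(D.group F)) * d * (θ : MulAut ↥(D.group F))⁻¹) := by
  obtain ⟨π, -, c, σ, hrep⟩ := hG.exists_params hε hW hτ θ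
  obtain ⟨χ, hχ, hd'⟩ := hd
  have hdx := fun {r : ℕ} (hr : r < D.nroots) (t : F) => hG.diag_xT hc hχ hd' hr t
  let U : Fˣ →* Fˣ := Units.map σ.toRingHom.toMonoidHom
  let b : Fin D.rank → Fˣ := fun j => (U (χ (D.simple (π.symm j)))) ^ D.graphExp (ringChar F) (π.symm j) j
  obtain ⟨A, hA⟩ := hG.exists_coef
  obtain ⟨d₁, hd₁, hd₂⟩ := exists_diagAut (hG.toGood2.sane) (charOf_isChar hA b)
  have hy : ∀ {r : ℕ} (hr : r < D.nroots) (t : F), d₁ (hG.toGood2.xT r t) =
      hG.toGood2.xT r (((charOf D A b r : Fˣ) : F) * t) := fun {r} hr t =>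
    hG.toGood2.eq_xT (hd₂ _ r t hr (hG.toGood2.xT_coe r t))
  have hb : ∀ i, ((b (π i) : Fˣ) : F) = σ (χ (D.simple i)) ^ D.graphExp (ringChar F) i (π i) := fun i => by
    simp [b, U]
  have key : ((θ : MulAut ↥(D.group F)) * d : MulAut ↥(D.group F)) = d₁ * (θ : MulAut ↥(D.group F)) := by
    have := hG.toGood2.hom_ext (((θ : MulAut ↥(D.group F)) * d : MulAut ↥(D.group F)) : ↥(D.group F) ≃* ↥(D.group F)).toMonoidHom
      ((d₁ * (θ : MulAut ↥(D.group F)) : MulAut ↥(D.group F)) : ↥(D.group F) ≃* ↥(D.group F)).toMonoidHom ?_ ?_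
    · apply MulEquiv.ext
      intro y
      exact DFunLike.congr_fun this y
    · intro i t
      show (θ : MulAut ↥(D.group F)) (d _) = d₁ ((θ : MulAut ↥(D.group F)) _)
      have hp := hG.toGood2.simple_lt i.2
      have hp' := hG.toGood2.simple_lt (π i).2
      rw [hdx hp, (hrep i _).1, (hrep i _).1, hy hp', charOf_simple hA, hb, map_mul, mul_pow]
      congr 1
      ring
    · intro i t
      show (θ : MulAut ↥(D.group F)) (d _) = d₁ ((θ : MulAut ↥(D.group F)) _)
      have hp := hG.toGood2.neg_lt (hG.toGood2.simple_lt i.2)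
      have hp' := hG.toGood2.neg_lt (hG.toGood2.simple_lt (π i).2)
      rw [hdx hp, (hrep i _).2, (hrep i _).2, hy hp', charOf_neg hA _ (hG.toGood2.simple_lt (π i).2),
        charOf_simple hA, hχ.1 _ (hG.toGood2.simple_lt i.2)]
      simp only [Units.val_inv_eq_inv_val, hb, map_mul, map_inv₀, mul_pow, inv_pow]
      congr 1
      ring
  have e : (θ : MulAut ↥(D.group F)) * d * (θ : MulAut ↥(D.group F))⁻¹ = d₁ := by
    rw [key]
    group
  rw [e]
  exact ⟨_, charOf_isRoot hA b, hd₁⟩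

end Tbl.Good3

end

end Cfsg.Agent.Lib.Chev
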