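/-
The structure of the outer automorphism group of a Chevalley group: the main statement.
-/
import Cfsg.Agent.Lib.ChevAut.OutStruct2

set_option autoImplicit false

namespace Cfsg.Agent.Lib.Chev

open Cfsg.Lie

open scoped commutatorElement

section

variable {F : Type*} [Field F] {D : ChevalleyDatum} {T : Tbl}

namespace Tbl.Good3

variable (hG : T.Good3 D)
include hG

/-- The field automorphism attached to an automorphism of the field. -/
noncomputable def fieldHom (F : Type*) [Field F] (D : ChevalleyDatum) (T : Tbl) (hG : T.Good3 D) :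
    (F ≃+* F) →* MulAut ↥(D.group F) :=
  MonoidHom.mk' (fun σ => (exists_fieldAut D σ).choose) (by
    intro σ τ
    have hx : ∀ (ρ : F ≃+* F) {r : ℕ} (_ : r < D.nroots) (t : F),
        (exists_fieldAut D ρ).choose (hG.toGood2.xT r t) = hG.toGood2.xT r (ρ t) := fun ρ {r} hr t =>
      hG.toGood2.eq_xT ((exists_fieldAut D ρ).choose_spec _ r t hr (hG.toGood2.xT_coe r t))
    have := hG.toGood2.hom_ext (exists_fieldAut D (σ * τ)).choose.toMonoidHom
      (((exists_fieldAut D σ).choose * (exists_fieldAut D τ).choose : MulAut ↥(D.group F)) : ↥(D.group F) ≃* ↥(D.group F)).toMonoidHom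
      (fun i t => by
        show (exists_fieldAut D (σ * τ)).choose _ = (exists_fieldAut D σ).choose ((exists_fieldAut D τ).choose _)
        rw [hx _ (hG.toGood2.simple_lt i.2), hx _ (hG.toGood2.simple_lt i.2), hx _ (hG.toGood2.simple_lt i.2)]
        rfl)
      (fun i t => by
        show (exists_fieldAut D (σ * τ)).choose _ = (exists_fieldAut D σ).choose ((exists_fieldAut D τ).choose _)
        have hp := hG.toGood2.neg_lt (hG.toGood2.simple_lt i.2)
        rw [hx _ hp, hx _ hp, hx _ hp]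
        rfl)
    apply MulEquiv.ext
    intro y
    exact DFunLike.congr_fun this y)

omit hG in
lemma fieldHom_spec (hG : T.Good3 D) (σ : F ≃+* F) : ∀ (g : ↥(D.group F)) (r : ℕ) (t : F), r < D.nroots →
    ((g : GL D.Idx F) : Matrix D.Idx D.Idx F) = D.x F r t →
      (((fieldHom F D T hG σ : MulAut ↥(D.group F)) g : GL D.Idx F) : Matrix D.Idx D.Idx F) = D.x F r (σ t) :=
  (exists_fieldAut D σ).choose_spec

/-- The closure of the field automorphisms is the image of the automorphisms of the field. -/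
lemma closure_field_eq : Subgroup.closure {φ : MulAut ↥(D.group F) | D.IsFieldAut φ} = (fieldHom F D T hG).range := by
  apply le_antisymm
  · refine (Subgroup.closure_le _).2 ?_
    rintro φ ⟨σ, hσ⟩
    refine ⟨σ, ?_⟩
    have hx : ∀ {r : ℕ} (_ : r < D.nroots) (t : F), (φ : ↥(D.group F) ≃* ↥(D.group F)) (hG.toGood2.xT r t) = hG.toGood2.xT r (σ t) :=
      fun {r} hr t => hG.toGood2.eq_xT (hσ _ r t hr (hG.toGood2.xT_coe r t))
    have hy : ∀ {r : ℕ} (_ : r < D.nroots) (t : F), (fieldHom F D T hG σ : MulAut ↥(D.group F)) (hG.toGood2.xT r t) = hG.toGood2.xT r (σ t) :=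
      fun {r} hr t => hG.toGood2.eq_xT (fieldHom_spec hG σ _ r t hr (hG.toGood2.xT_coe r t))
    have := hG.toGood2.hom_ext ((fieldHom F D T hG σ : MulAut ↥(D.group F)) : ↥(D.group F) ≃* ↥(D.group F)).toMonoidHom
      (φ : ↥(D.group F) ≃* ↥(D.group F)).toMonoidHom
      (fun i t => by
        show (fieldHom F D T hG σ : MulAut ↥(D.group F)) _ = (φ : ↥(D.group F) ≃* ↥(D.group F)) _
        rw [hx (hG.toGood2.simple_lt i.2), hy (hG.toGood2.simple_lt i.2)])
      (fun i t => by
        show (fieldHom F D T hG σ : MulAut ↥(D.group F)) _ = (φ : ↥(D.group F) ≃* ↥(D.group F)) _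
        have hp := hG.toGood2.neg_lt (hG.toGood2.simple_lt i.2)
        rw [hx hp, hy hp])
    apply MulEquiv.ext
    intro y
    exact DFunLike.congr_fun this y
  · rintro _ ⟨σ, rfl⟩
    exact Subgroup.subset_closure ⟨σ, fieldHom_spec hG σ⟩

/-- The structure of the outer automorphism group. -/
theorem out_struct [Finite F] (hε : T.chkRank1 = true) (hW : W0s T D)
    (hτ : ∀ (θ : ↥(D.group F) ≃* ↥(D.group F)) (π : Equiv.Perm (Fin D.rank)) (c : Fin D.rank → F)
      (τ : Fin D.rank → (F ≃+* F)), hG.toGood2.Form θ π c τ → TauOK F D π τ)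
    (hc : chkStep D = true) (Dbar Fbar : Subgroup (Cfsg.Out ↥(D.group F)))
    (hDbar : Dbar = (Subgroup.closure {φ : MulAut ↥(D.group F) | D.IsDiagonalAut φ}).map (QuotientGroup.mk' (Cfsg.Inn ↥(D.group F))))
    (hFbar : Fbar = (Subgroup.closure {φ : MulAut ↥(D.group F) | D.IsFieldAut φ}).map (QuotientGroup.mk' (Cfsg.Inn ↥(D.group F)))) :
    Dbar.Normal ∧ IsMulCommutative ↥Dbar ∧ IsCyclic ↥Fbar ∧ (Dbar ⊔ Fbar).Normal ∧
      (Dbar ⊔ Fbar).index = Nat.card (hG.permOf (F := F) hε hW).range ∧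
      ∀ a b : stdGroup D F, hG.permOf hε hW a * hG.permOf hε hW b ≠ hG.permOf hε hW b * hG.permOf hε hW a →
        ¬ commutator (Cfsg.Out ↥(D.group F)) ≤ Dbar ⊔ Fbar := by
  classical
  set mk' := QuotientGroup.mk' (Cfsg.Inn ↥(D.group F)) with hmk
  set φ : stdGroup D F →* Cfsg.Out ↥(D.group F) := mk'.comp (stdGroup D F).subtype with hφdef
  have hφ : Function.Surjective φ := hG.outHom_surj
  set K₀ := (hG.permOf (F := F) hε hW).ker with hK₀
  have hkerφ : φ.ker ≤ K₀ := by
    intro θ hθ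
    have h1 : (QuotientGroup.mk (θ : MulAut ↥(D.group F)) : Cfsg.Out ↥(D.group F)) = 1 := hθ
    exact hG.permOf_conj hε hW ((QuotientGroup.eq_one_iff _).1 h1)
  have hDle : Subgroup.closure {φ : MulAut ↥(D.group F) | D.IsDiagonalAut φ} ≤ K₀.map (stdGroup D F).subtype := by
    refine (Subgroup.closure_le _).2 ?_
    intro d hd
    have hs : IsStd (d : ↥(D.group F) ≃* ↥(D.group F)) := hG.isStd_diag hc hd
    refine ⟨⟨d, hs⟩, ?_, rfl⟩
    obtain ⟨χ, hχ, hd'⟩ := hd
    have hdx := fun {r : ℕ} (hr : r < D.nroots) (t : F) => hG.diag_xT hc hχ hd' hr t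
    refine hG.permOf_of_rep hε hW _ (c := fun i => χ (D.simple i)) (σ := RingEquiv.refl F)
      (hG.rep_of_scale _ _ (fun i t => ?_) (fun i t => ?_))
    · exact hdx (hG.toGood2.simple_lt i.2) t
    · have := hdx (hG.toGood2.neg_lt (hG.toGood2.simple_lt i.2)) t
      rw [hχ.1 _ (hG.toGood2.simple_lt i.2)] at this
      exact this
  have hFle : Subgroup.closure {φ : MulAut ↥(D.group F) | D.IsFieldAut φ} ≤ K₀.map (stdGroup D F).subtype := by
    refine (Subgroup.closure_le _).2 ?_
    intro f hf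
    have hs : IsStd (f : ↥(D.group F) ≃* ↥(D.group F)) := hG.isStd_field hf
    refine ⟨⟨f, hs⟩, ?_, rfl⟩
    obtain ⟨σ, hσ⟩ := hf
    have hfx : ∀ {r : ℕ} (_ : r < D.nroots) (t : F), (f : ↥(D.group F) ≃* ↥(D.group F)) (hG.toGood2.xT r t) = hG.toGood2.xT r (σ t) :=
      fun {r} hr t => hG.toGood2.eq_xT (hσ _ r t hr (hG.toGood2.xT_coe r t))
    refine hG.permOf_of_rep hε hW _ (c := fun _ => 1) (σ := σ)
      (hG.rep_of_scale _ _ (fun i t => ?_) (fun i t => ?_))
    · simpa using hfx (hG.toGood2.simple_lt i.2) t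
    · simpa using hfx (hG.toGood2.neg_lt (hG.toGood2.simple_lt i.2)) t
  have hsup : Dbar ⊔ Fbar = K₀.map φ := by
    apply le_antisymm
    · rw [hDbar, hFbar]
      have e : K₀.map φ = (K₀.map (stdGroup D F).subtype).map mk' := by
        rw [hφdef, Subgroup.map_map]
      rw [e]
      exact sup_le (Subgroup.map_mono hDle) (Subgroup.map_mono hFle)
    · rintro _ ⟨θ, hθ, rfl⟩
      obtain ⟨π, -, c, σ, hrep⟩ := hG.exists_params hε hW hτ θ
      have hπ : π = 1 := by
        rw [← hG.permOf_of_rep hε hW θ hrep]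
        exact hθ
      subst hπ
      obtain ⟨A, hA⟩ := hG.exists_coef
      obtain ⟨d₁, hd₁, hd₂⟩ := exists_diagAut (hG.toGood2.sane) (charOf_isChar hA c)
      have hy : ∀ {r : ℕ} (_ : r < D.nroots) (t : F), d₁ (hG.toGood2.xT r t) =
          hG.toGood2.xT r (((charOf D A c r : Fˣ) : F) * t) := fun {r} hr t =>
        hG.toGood2.eq_xT (hd₂ _ r t hr (hG.toGood2.xT_coe r t))
      have hz : ∀ {r : ℕ} (_ : r < D.nroots) (t : F), (fieldHom F D T hG σ : MulAut ↥(D.group F)) (hG.toGood2.xT r t) = hG.toGood2.xT r (σ t) :=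
        fun {r} hr t => hG.toGood2.eq_xT (fieldHom_spec hG σ _ r t hr (hG.toGood2.xT_coe r t))
      have hrep2 : hG.toGood2.Rep ((d₁ * fieldHom F D T hG σ : MulAut ↥(D.group F)) : MulAut ↥(D.group F)) 1 c σ := by
        refine hG.rep_of_scale _ _ (fun i t => ?_) (fun i t => ?_)
        · show d₁ ((fieldHom F D T hG σ : MulAut ↥(D.group F)) _) = _
          rw [hz (hG.toGood2.simple_lt i.2), hy (hG.toGood2.simple_lt i.2), charOf_simple hA]
        · show d₁ ((fieldHom F D T hG σ : MulAut ↥(D.group F)) _) = _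
          rw [hz (hG.toGood2.neg_lt (hG.toGood2.simple_lt i.2)), hy (hG.toGood2.neg_lt (hG.toGood2.simple_lt i.2)),
            charOf_neg hA _ (hG.toGood2.simple_lt i.2), charOf_simple hA]
      have e : (θ : MulAut ↥(D.group F)) = d₁ * fieldHom F D T hG σ := Tbl.Good2.Rep.unique hG.toGood2 hrep hrep2
      show (QuotientGroup.mk (θ : MulAut ↥(D.group F)) : Cfsg.Out ↥(D.group F)) ∈ _
      rw [e, QuotientGroup.mk_mul]
      refine Subgroup.mul_mem _ (Subgroup.mem_sup_left ?_) (Subgroup.mem_sup_right ?_)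
      · rw [hDbar]
        exact ⟨d₁, Subgroup.subset_closure ⟨_, charOf_isRoot hA c, hd₁⟩, rfl⟩
      · rw [hFbar]
        exact ⟨fieldHom F D T hG σ, Subgroup.subset_closure ⟨σ, fieldHom_spec hG σ⟩, rfl⟩
  refine ⟨?_, ?_, ?_, ?_, ?_, ?_⟩
  · -- normality of the diagonal part
    constructor
    intro n hn g
    obtain ⟨θ, rfl⟩ := hφ g
    rw [hDbar] at hn ⊢
    obtain ⟨d, hd, rfl⟩ := hn
    refine ⟨(θ : MulAut ↥(D.group F)) * d * (θ : MulAut ↥(D.group F))⁻¹, ?_, ?_⟩
    · induction hd using Subgroup.closure_induction with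
      | mem x hx => exact Subgroup.subset_closure (hG.diag_conj hε hW hτ hc θ hx)
      | one =>
        rw [mul_one, mul_inv_cancel]
        exact Subgroup.one_mem _
      | mul x y _ _ hx hy =>
        have e : (θ : MulAut ↥(D.group F)) * (x * y) * (θ : MulAut ↥(D.group F))⁻¹ =
            ((θ : MulAut ↥(D.group F)) * x * (θ : MulAut ↥(D.group F))⁻¹) * ((θ : MulAut ↥(D.group F)) * y * (θ : MulAut ↥(D.group F))⁻¹) := by group
        rw [e]
        exact Subgroup.mul_mem _ hx hy
      | inv x _ hx =>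
        have e : (θ : MulAut ↥(D.group F)) * x⁻¹ * (θ : MulAut ↥(D.group F))⁻¹ =
            ((θ : MulAut ↥(D.group F)) * x * (θ : MulAut ↥(D.group F))⁻¹)⁻¹ := by group
        rw [e]
        exact Subgroup.inv_mem _ hx
    · simp [hφdef, map_mul, map_inv]
  · -- commutativity
    constructor
    constructor
    rintro ⟨a, ha⟩ ⟨b, hb⟩
    apply Subtype.ext
    rw [hDbar] at ha hb
    obtain ⟨x, hx, rfl⟩ := ha
    obtain ⟨y, hy, rfl⟩ := hb
    show mk' x * mk' y = mk' y * mk' x
    rw [← map_mul, ← map_mul, closure_comm (fun a ha b hb => diag_comm ha hb) hx hy]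
  · -- the field part is cyclic
    rw [hFbar, hG.closure_field_eq]
    have e : (fieldHom F D T hG).range.map mk' = (mk'.comp (fieldHom F D T hG)).range := by
      rw [MonoidHom.range_comp]
    rw [e]
    haveI : IsCyclic (F ≃+* F) := isCyclic_ringAut
    exact isCyclic_of_surjective (mk'.comp (fieldHom F D T hG)).rangeRestrict (MonoidHom.rangeRestrict_surjective _)
  · rw [hsup]
    haveI : K₀.Normal := MonoidHom.normal_ker _
    exact Subgroup.Normal.map inferInstance φ hφ
  · rw [hsup]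
    have e1 : (K₀.map φ).comap φ = K₀ := by
      rw [Subgroup.comap_map_eq]
      exact sup_eq_left.2 hkerφ
    have e2 := Subgroup.index_comap_of_surjective (K₀.map φ) hφ
    rw [e1] at e2
    rw [← e2, hK₀, Subgroup.index_ker]
  · intro a b hab hcomm
    apply hab
    rw [hsup] at hcomm
    have h1 : ⁅φ a, φ b⁆ ∈ commutator (Cfsg.Out ↥(D.group F)) := Subgroup.commutator_mem_commutator (Subgroup.mem_top _) (Subgroup.mem_top _)
    obtain ⟨κ, hκ, e⟩ := hcomm h1
    have h2 : κ⁻¹ * ⁅a, b⁆ ∈ φ.ker := by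
      rw [MonoidHom.mem_ker, map_mul, map_inv, e, map_commutatorElement, inv_mul_cancel]
    have h3 : ⁅a, b⁆ ∈ K₀ := by
      have := Subgroup.mul_mem _ hκ (hkerφ h2)
      simpa using this
    have h4 : hG.permOf hε hW ⁅a, b⁆ = 1 := h3
    rw [map_commutatorElement] at h4
    exact commutatorElement_eq_one_iff_mul_comm.1 h4

end Tbl.Good3

end

end Cfsg.Agent.Lib.Chev
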