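/-
The structure of the outer automorphism group of a Chevalley group, type by type.
-/
import Cfsg.Agent.Lib.ChevAut.OutStruct3
import Cfsg.Agent.Lib.ChevAut.SymT
import Cfsg.Agent.Lib.ChevAut.TauT
import Cfsg.Agent.Lib.ChevAut.GrD4t
import Cfsg.Agent.Lib.Chev.GrD4

set_option autoImplicit false
set_option maxRecDepth 100000

namespace Cfsg.Agent.Lib.Chev

open Cfsg.Lie

theorem stepG2 : chkStep chevG2 = true := by decide +kernel
theorem stepB2 : chkStep chevB2 = true := by decide +kernel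
theorem stepD4 : chkStep chevD4 = true := by decide +kernel
theorem stepF4 : chkStep chevF4 = true := by decide +kernel
theorem stepE6 : chkStep chevE6 = true := by decide +kernel
theorem stepE7 : chkStep chevE7 = true := by decide +kernel
theorem stepE8 : chkStep chevE8 = true := by decide +kernel

theorem card_symD4 : Fintype.card {π : Equiv.Perm (Fin chevD4.rank) //
    ∀ i j : Fin chevD4.rank, i ≠ j → chevD4.bonds (π i) (π j) = chevD4.bonds i j} = 6 := by decide +kernel

/-- A subgroup all of whose elements are `1` or one element has order one or two. -/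
lemma card_subgroup_le_two {X : Type*} [Group X] [Finite X] (H : Subgroup X) (r : X) (h : ∀ x ∈ H, x = 1 ∨ x = r) :
    Nat.card H = 1 ∨ Nat.card H = 2 := by
  classical
  have h1 : Nat.card H ≤ Nat.card Bool := by
    refine Nat.card_le_card_of_injective (fun x : H => decide ((x : X) = 1)) ?_
    rintro ⟨x, hx⟩ ⟨y, hy⟩ e
    apply Subtype.ext
    show x = y
    simp only [decide_eq_decide] at e
    rcases h x hx with rfl | h3
    · exact (e.1 rfl).symm
    · rcases h y hy with h4 | h4
      · rw [e.2 h4, h4]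
      · rw [h3, h4]
  rw [Nat.card_eq_fintype_card (α := Bool), Fintype.card_bool] at h1
  have h2 : 0 < Nat.card H := Nat.card_pos
  omega

section

variable {F : Type*} [Field F]

namespace Tbl.Good3

variable {D : ChevalleyDatum} {T : Tbl} (hG : T.Good3 D)
include hG

/-- The permutation attached to a standard automorphism is a symmetry. -/
lemma permOf_sym [Finite F] (hε : T.chkRank1 = true) (hW : W0s T D)
    (hτ : ∀ (θ : ↥(D.group F) ≃* ↥(D.group F)) (π : Equiv.Perm (Fin D.rank)) (c : Fin D.rank → F)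
      (τ : Fin D.rank → (F ≃+* F)), hG.toGood2.Form θ π c τ → TauOK F D π τ) (θ : stdGroup D F) :
    D.IsDiagramSymmetry (hG.permOf (F := F) hε hW θ) := by
  obtain ⟨π, c, hc, τ, hform⟩ := hG.std_form (F := F) hε hW θ.2
  have hF : hG.toGood2.Form θ π c τ :=
    { c_ne := hc
      pos := fun i t => by
        rw [hG.toGood2.xT_of_lt (hG.toGood2.simple_lt i.2), hG.toGood2.xT_of_lt (hG.toGood2.simple_lt (π i).2)]
        exact (hform i t).1
      neg := fun i t => by
        rw [hG.toGood2.xT_of_lt (hG.toGood2.neg_lt (hG.toGood2.simple_lt i.2)),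
          hG.toGood2.xT_of_lt (hG.toGood2.neg_lt (hG.toGood2.simple_lt (π i).2))]
        exact (hform i t).2 }
  rw [hG.permOf_eq hε hW θ hF.base_pos]
  exact (hτ _ _ _ _ hF).1

/-- An admissible permutation is attached to a standard automorphism. -/
lemma adm_mem_range (hε : T.chkRank1 = true) (hW : W0s T D) {π : Equiv.Perm (Fin D.rank)}
    (h : hG.toGood2.Adm F π) : π ∈ (hG.permOf (F := F) hε hW).range := by
  obtain ⟨g, hs, hg⟩ := h
  refine ⟨⟨g, hs⟩, hG.permOf_of_rep hε hW _ (c := fun _ => 1) (σ := RingEquiv.refl F) fun i t => ?_⟩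
  have := hg i t
  simpa using this

end Tbl.Good3

/-- The structure of the outer automorphism group, with at most two diagram symmetries. -/
theorem out_struct_two {D : ChevalleyDatum} {T : Tbl} (hG : T.Good3 D) [Finite F] (hε : T.chkRank1 = true) (hW : W0s T D)
    (hτ : ∀ (θ : ↥(D.group F) ≃* ↥(D.group F)) (π : Equiv.Perm (Fin D.rank)) (c : Fin D.rank → F)
      (τ : Fin D.rank → (F ≃+* F)), hG.toGood2.Form θ π c τ → TauOK F D π τ)
    (hc : chkStep D = true) (r : Equiv.Perm (Fin D.rank))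
    (hr : ∀ π : Equiv.Perm (Fin D.rank), D.IsDiagramSymmetry π → π = 1 ∨ π = r)
    (Dbar Fbar : Subgroup (Cfsg.Out ↥(D.group F)))
    (hDbar : Dbar = (Subgroup.closure {φ : MulAut ↥(D.group F) | D.IsDiagonalAut φ}).map (QuotientGroup.mk' (Cfsg.Inn ↥(D.group F))))
    (hFbar : Fbar = (Subgroup.closure {φ : MulAut ↥(D.group F) | D.IsFieldAut φ}).map (QuotientGroup.mk' (Cfsg.Inn ↥(D.group F)))) :
    Dbar.Normal ∧ IsMulCommutative ↥Dbar ∧ IsCyclic ↥Fbar ∧ (Dbar ⊔ Fbar).Normal ∧
      ((Dbar ⊔ Fbar).index = 1 ∨ (Dbar ⊔ Fbar).index = 2 ∨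
        ((Dbar ⊔ Fbar).index = 6 ∧ ¬ commutator (Cfsg.Out ↥(D.group F)) ≤ Dbar ⊔ Fbar)) := by
  obtain ⟨h1, h2, h3, h4, h5, -⟩ := hG.out_struct hε hW hτ hc Dbar Fbar hDbar hFbar
  refine ⟨h1, h2, h3, h4, ?_⟩
  rw [h5]
  have := card_subgroup_le_two (hG.permOf (F := F) hε hW).range r (by
    rintro _ ⟨θ, rfl⟩
    exact hr _ (hG.permOf_sym hε hW hτ θ))
  rcases this with h | h
  · exact Or.inl h
  · exact Or.inr (Or.inl h)

lemma perm_eq_of_vals {n : ℕ} (π π' : Equiv.Perm (Fin n)) (L : List ℕ) (h : ∀ i : Fin n, (π i).val = L.getD i 0)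
    (h' : ∀ i : Fin n, (π' i).val = L.getD i 0) : π = π' :=
  Equiv.ext fun i => Fin.ext ((h i).trans (h' i).symm)

/-- The six symmetries of `D₄` are admissible. -/
theorem adm_D4 {π : Equiv.Perm (Fin chevD4.rank)} (h : chevD4.IsDiagramSymmetry π) : good3D4.toGood2.Adm F π := by
  have hexp : ∀ i : Fin chevD4.rank, chevD4.graphExp (ringChar F) i (π i) = 1 := fun i =>
    graphExp_of_not_long _ _ _ _ (longD4 _)
  rcases symD4 π h with h0 | h1 | h2 | h3 | h4 | h5
  · have : π = 1 := by
      apply Equiv.ext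
      intro i
      apply Fin.ext
      rw [h0]
      revert i
      decide +kernel
    rw [this]
    exact good3D4.toGood2.adm_one
  · refine good3D4.toGood2.adm_of_graphD grD4d π (fun i => ?_) (by
      show ∀ r, r < chevD4.nroots → (chevD4.nroots / 2 ≤ r ↔ chevD4.nroots / 2 ≤ barD4d r)
      decide +kernel) hexp
    have := grD4d_simple i i.2
    rw [← h1 i] at this
    exact this
  · refine good3D4.toGood2.adm_of_graphD grD4c π (fun i => ?_) (by
      show ∀ r, r < chevD4.nroots → (chevD4.nroots / 2 ≤ r ↔ chevD4.nroots / 2 ≤ barD4c r)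
      decide +kernel) hexp
    have := grD4c_simple i i.2
    rw [← h2 i] at this
    exact this
  · refine good3D4.toGood2.adm_of_graphD grD4a π (fun i => ?_) (by
      show ∀ r, r < chevD4.nroots → (chevD4.nroots / 2 ≤ r ↔ chevD4.nroots / 2 ≤ barD4a r)
      decide +kernel) hexp
    have := grD4a_simple i i.2
    rw [← h3 i] at this
    exact this
  · refine good3D4.toGood2.adm_of_graphD grD4b π (fun i => ?_) (by
      show ∀ r, r < chevD4.nroots → (chevD4.nroots / 2 ≤ r ↔ chevD4.nroots / 2 ≤ barD4b r)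
      decide +kernel) hexp
    have := grD4b_simple i i.2
    rw [← h4 i] at this
    exact this
  · refine good3D4.toGood2.adm_of_graphD grD4e π (fun i => ?_) (by
      show ∀ r, r < chevD4.nroots → (chevD4.nroots / 2 ≤ r ↔ chevD4.nroots / 2 ≤ barD4e r)
      decide +kernel) hexp
    have := grD4e_simple i i.2
    rw [← h5 i] at this
    exact this

/-- The structure of the outer automorphism group for `D₄`. -/
theorem out_struct_D4 [Finite F] (Dbar Fbar : Subgroup (Cfsg.Out ↥(chevD4.group F)))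
    (hDbar : Dbar = (Subgroup.closure {φ : MulAut ↥(chevD4.group F) | chevD4.IsDiagonalAut φ}).map (QuotientGroup.mk' (Cfsg.Inn ↥(chevD4.group F))))
    (hFbar : Fbar = (Subgroup.closure {φ : MulAut ↥(chevD4.group F) | chevD4.IsFieldAut φ}).map (QuotientGroup.mk' (Cfsg.Inn ↥(chevD4.group F)))) :
    Dbar.Normal ∧ IsMulCommutative ↥Dbar ∧ IsCyclic ↥Fbar ∧ (Dbar ⊔ Fbar).Normal ∧
      ((Dbar ⊔ Fbar).index = 1 ∨ (Dbar ⊔ Fbar).index = 2 ∨
        ((Dbar ⊔ Fbar).index = 6 ∧ ¬ commutator (Cfsg.Out ↥(chevD4.group F)) ≤ Dbar ⊔ Fbar)) := by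
  classical
  have hτ : ∀ (θ : ↥(chevD4.group F) ≃* ↥(chevD4.group F)) (π : Equiv.Perm (Fin chevD4.rank)) (c : Fin chevD4.rank → F)
      (τ : Fin chevD4.rank → (F ≃+* F)), good3D4.toGood2.Form θ π c τ → TauOK F chevD4 π τ := fun _ _ _ _ h => tauD4 _ h
  obtain ⟨h1, h2, h3, h4, h5, h6⟩ := good3D4.out_struct rank1D4 w0sD4 hτ stepD4 Dbar Fbar hDbar hFbar
  refine ⟨h1, h2, h3, h4, Or.inr (Or.inr ⟨?_, ?_⟩)⟩
  · rw [h5, ← card_symD4, ← Nat.card_eq_fintype_card]
    refine Nat.card_congr (Equiv.subtypeEquivRight fun π => ?_)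
    constructor
    · rintro ⟨θ, rfl⟩
      exact good3D4.permOf_sym rank1D4 w0sD4 hτ θ
    · intro h
      exact good3D4.adm_mem_range rank1D4 w0sD4 (adm_D4 h)
  · have hs : ∀ {π : Equiv.Perm (Fin chevD4.rank)}, chevD4.IsDiagramSymmetry π →
        ∃ a : stdGroup chevD4 F, good3D4.permOf (F := F) rank1D4 w0sD4 a = π := fun h =>
      good3D4.adm_mem_range rank1D4 w0sD4 (adm_D4 h)
    have sa : chevD4.IsDiagramSymmetry grD4a.rhE := by
      intro i j hij
      show chevD4.bonds (rhD4a i) (rhD4a j) = chevD4.bonds i j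
      revert i j
      decide +kernel
    have st : chevD4.IsDiagramSymmetry grD4c.rhE := by
      intro i j hij
      show chevD4.bonds (rhD4c i) (rhD4c j) = chevD4.bonds i j
      revert i j
      decide +kernel
    obtain ⟨a, ha⟩ := hs sa
    obtain ⟨b, hb⟩ := hs st
    refine h6 a b ?_
    rw [ha, hb]
    intro e
    have e1 : rhD4a (rhD4c 0) = rhD4c (rhD4a 0) := congrArg (fun σ : Equiv.Perm (Fin chevD4.rank) => (σ ⟨0, by decide⟩).val) e
    exact absurd e1 (by decide +kernel)

end

end Cfsg.Agent.Lib.Chev
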