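/-
The structure of the outer automorphism group of a Chevalley group, all types.
-/
import Cfsg.Agent.Lib.ChevAut.OutStructT
import Cfsg.Agent.Lib.ChevAut.OutE

set_option autoImplicit false
set_option maxRecDepth 100000

namespace Cfsg.Agent.Lib.Chev

open Cfsg.Lie

section

variable {F : Type*} [Field F]

theorem hr_id {D : ChevalleyDatum} (L : List ℕ) (hL : ∀ i : Fin D.rank, L.getD i 0 = i.val) (π : Equiv.Perm (Fin D.rank))
    (h : ∀ i : Fin D.rank, (π i).val = L.getD i 0) : π = 1 :=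
  Equiv.ext fun i => Fin.ext ((h i).trans (hL i))

/-- The statement for all types. -/
theorem out_struct_all [Finite F] (D : ChevalleyDatum)
    (hD : D ∈ [chevG2, chevB2, chevD4, chevF4, chevE6, chevE7, chevE8])
    (Dbar Fbar : Subgroup (Cfsg.Out ↥(D.group F)))
    (hDbar : Dbar = (Subgroup.closure {φ : MulAut ↥(D.group F) | D.IsDiagonalAut φ}).map (QuotientGroup.mk' (Cfsg.Inn ↥(D.group F))))
    (hFbar : Fbar = (Subgroup.closure {φ : MulAut ↥(D.group F) | D.IsFieldAut φ}).map (QuotientGroup.mk' (Cfsg.Inn ↥(D.group F)))) :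
    Dbar.Normal ∧ IsMulCommutative ↥Dbar ∧ IsCyclic ↥Fbar ∧ (Dbar ⊔ Fbar).Normal ∧
      ((Dbar ⊔ Fbar).index = 1 ∨ (Dbar ⊔ Fbar).index = 2 ∨
        ((Dbar ⊔ Fbar).index = 6 ∧ ¬ commutator (Cfsg.Out ↥(D.group F)) ≤ Dbar ⊔ Fbar)) := by
  simp only [List.mem_cons, List.not_mem_nil, or_false] at hD
  rcases hD with rfl | rfl | rfl | rfl | rfl | rfl | rfl
  · refine out_struct_two good3G2 rank1G2 w0sG2 (fun _ _ _ _ h => tauG2 _ h) stepG2 Fin.revPerm (fun π h => ?_) _ _ hDbar hFbar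
    rcases symG2 π h with h | h
    · exact Or.inl (hr_id _ (by decide +kernel) π h)
    · exact Or.inr (perm_eq_of_vals _ _ _ h (by decide +kernel))
  · refine out_struct_two good3B2 rank1B2 w0sB2 (fun _ _ _ _ h => tauB2 _ h) stepB2 Fin.revPerm (fun π h => ?_) _ _ hDbar hFbar
    rcases symB2 π h with h | h
    · exact Or.inl (hr_id _ (by decide +kernel) π h)
    · exact Or.inr (perm_eq_of_vals _ _ _ h (by decide +kernel))
  · exact out_struct_D4 _ _ hDbar hFbar
  · refine out_struct_two good3F4 rank1F4 w0sF4 (fun _ _ _ _ h => tauF4 _ h) stepF4 Fin.revPerm (fun π h => ?_) _ _ hDbar hFbar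
    rcases symF4 π h with h | h
    · exact Or.inl (hr_id _ (by decide +kernel) π h)
    · exact Or.inr (perm_eq_of_vals _ _ _ h (by decide +kernel))
  · refine out_struct_two good3E6 rank1E6 w0sE6 (fun _ _ _ _ h => tauE6 _ h) stepE6 revE6 (fun π h => ?_) _ _ hDbar hFbar
    rcases symE6 π h with h | h
    · exact Or.inl (hr_id _ listE6 π h)
    · exact Or.inr (perm_eq_of_vals _ _ _ h revE6_val)
  · refine out_struct_two good3E7 rank1E7 w0sE7 (fun _ _ _ _ h => tauE7 _ h) stepE7 1 (fun π h => ?_) _ _ hDbar hFbar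
    exact Or.inl (hr_id _ listE7 π (symE7 π h))
  · refine out_struct_two good3E8 rank1E8 w0sE8 (fun _ _ _ _ h => tauE8 _ h) stepE8 1 (fun π h => ?_) _ _ hDbar hFbar
    exact Or.inl (hr_id _ listE8 π (symE8 π h))

end

end Cfsg.Agent.Lib.Chev
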