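/-
The action of the diagram symmetries of `D₄` and `E₆` on the roots, checked by the kernel.
-/
import Cfsg.Agent.Lib.Chev.All3
import Cfsg.Prelude.Def_ChevAutomorphisms

set_option autoImplicit false
set_option maxRecDepth 100000
set_option maxHeartbeats 0

namespace Cfsg.Agent.Lib.Chev

open Cfsg.Lie

theorem permChkD4 : ∀ π : Equiv.Perm (Fin chevD4.rank),
    (∀ i j : Fin chevD4.rank, i ≠ j → chevD4.bonds (π i) (π j) = chevD4.bonds i j) →
    (∀ i : Fin chevD4.rank, chevD4.permRoot π (chevD4.simple i) = chevD4.simple (π i)) ∧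
    (∀ i : Fin chevD4.rank, ∀ r, r < chevD4.nroots → chevD4.permRoot π r < chevD4.nroots ∧
       chevD4.permRoot π (digD4.tbl.refl i r) = digD4.tbl.refl (π i) (chevD4.permRoot π r)) := by decide +kernel

theorem permChkE6 : ∀ π : Equiv.Perm (Fin chevE6.rank),
    (∀ i j : Fin chevE6.rank, i ≠ j → chevE6.bonds (π i) (π j) = chevE6.bonds i j) →
    (∀ i : Fin chevE6.rank, chevE6.permRoot π (chevE6.simple i) = chevE6.simple (π i)) ∧
    (∀ i : Fin chevE6.rank, ∀ r, r < chevE6.nroots → chevE6.permRoot π r < chevE6.nroots ∧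
       chevE6.permRoot π (digE6.tbl.refl i r) = digE6.tbl.refl (π i) (chevE6.permRoot π r)) := by decide +kernel

end Cfsg.Agent.Lib.Chev
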