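/-
Generation of a Chevalley group by its monomial subgroup and few root subgroups.
-/
import Cfsg.Agent.Lib.ChevAut.LongPair

set_option autoImplicit false

namespace Cfsg.Agent.Lib.Chev

open Cfsg.Lie

section

variable {F : Type*} [Field F] {D : ChevalleyDatum} {T : Tbl}

namespace Tbl.Good2

variable (hG : T.Good2 D)
include hG

lemma root_move {L : Subgroup (GL D.Idx F)} (hN : D.monomialSubgroup F ≤ L) {l : List ℕ} (hl : ∀ i ∈ l, i < D.rank)
    {r : ℕ} (hr : r < D.nroots) (h : D.rootSubgroup F r ≤ L) : D.rootSubgroup F (wperm T l r) ≤ L := by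
  rw [← hG.map_conj_root_nProd hl hr]
  rintro _ ⟨x, hx, rfl⟩
  have hn := hN (hG.nProd_mem_N (F := F) hl)
  exact L.mul_mem (L.mul_mem hn (h hx)) (L.inv_mem hn)

lemma root_move_back {L : Subgroup (GL D.Idx F)} (hN : D.monomialSubgroup F ≤ L) {l : List ℕ} (hl : ∀ i ∈ l, i < D.rank)
    {r : ℕ} (hr : r < D.nroots) (h : D.rootSubgroup F (wperm T l r) ≤ L) : D.rootSubgroup F r ≤ L := by
  rw [← hG.map_conj_root_nProd hl hr] at h
  intro x hx
  have hn := hN (hG.nProd_mem_N (F := F) hl)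
  have h1 := h ⟨x, hx, rfl⟩
  have e : x = (hG.nProd l)⁻¹ * ((MulAut.conj (hG.nProd (F := F) l)).toMonoidHom x) * hG.nProd l := by
    show x = (hG.nProd l)⁻¹ * (hG.nProd l * x * (hG.nProd l)⁻¹) * hG.nProd l
    group
  rw [e]
  exact L.mul_mem (L.mul_mem (L.inv_mem hn) h1) hn

theorem group_le_of_base {L : Subgroup (GL D.Idx F)} (hN : D.monomialSubgroup F ≤ L) (base : ℕ → ℕ) (w : ℕ → List ℕ)
    (hw : ∀ r, r < D.nroots → (∀ i ∈ w r, i < D.rank) ∧ base r < D.nroots ∧ wperm T (w r) (base r) = r)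
    (hbase : ∀ r, r < D.nroots → D.rootSubgroup F (base r) ≤ L) : D.group F ≤ L := by
  have hroot : ∀ r, r < D.nroots → D.rootSubgroup F r ≤ L := by
    intro r hr
    obtain ⟨h1, h2, h3⟩ := hw r hr
    have := hG.root_move hN h1 h2 (hbase r hr)
    rwa [h3] at this
  refine (Subgroup.closure_le _).2 ?_
  rintro g ⟨r, t, hg⟩
  refine hroot r r.2 (Subgroup.subset_closure ⟨t, ?_⟩)
  rw [hg]
  simp [ChevalleyDatum.x, r.2]

/-- The commutator formula produces a further root subgroup. -/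
lemma root_of_comm {L : Subgroup (GL D.Idx F)} {a b r : ℕ} (ha : a < D.nroots) (hb : b < D.nroots) (hr : r < D.nroots)
    (h1 : b ≠ a) (h2 : b ≠ D.neg a) {c : ℤ} (hc : D.commTerms a b = [(r, c, 1, 1)]) (hc0 : (c : F) ≠ 0)
    (hLa : D.rootSubgroup F a ≤ L) (hLb : D.rootSubgroup F b ≤ L) : D.rootSubgroup F r ≤ L := by
  have key : ∀ t u : F, hG.xU hr ((c : F) * (-t) * u) ∈ L := by
    intro t u
    have e : hG.xU hb u * hG.xU ha t = hG.xU ha t * hG.xU hb u * hG.xU hr ((c : F) * (-t) * u) := by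
      apply Units.ext
      have e0 := hG.x_comm ha hb h1 h2 t u
      unfold ChevalleyDatum.commWord at e0
      rw [hc] at e0
      simpa [wordMat_cons, wordMat_nil] using e0
    have e2 : hG.xU hr ((c : F) * (-t) * u) = (hG.xU ha t * hG.xU hb u)⁻¹ * (hG.xU hb u * hG.xU ha t) := by
      rw [e]
      group
    rw [e2]
    have m1 := hLa (hG.xU_mem_root ha t)
    have m2 := hLb (hG.xU_mem_root hb u)
    exact L.mul_mem (L.inv_mem (L.mul_mem m1 m2)) (L.mul_mem m2 m1)
  intro g hg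
  obtain ⟨v, rfl⟩ := hG.rootSubgroup_mem hr hg
  have := key (-(v / c)) 1
  rwa [_root_.neg_neg, mul_one, mul_div_cancel₀ _ hc0] at this

end Tbl.Good2

end

end Cfsg.Agent.Lib.Chev
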