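/-
Automorphisms permuting the fundamental root elements and their opposites permute all root elements up to sign.
-/
import Cfsg.Agent.Lib.ChevAut.DiagMem

set_option autoImplicit false

namespace Cfsg.Agent.Lib.Chev

open Cfsg.Lie

section

variable {F : Type*} [Field F] {D : ChevalleyDatum} {T : Tbl}

namespace Tbl.Good2

variable (hG : T.Good2 D)
include hG

/-- Conjugation of root elements by `n_{p_i}(1)`. -/
lemma nG_conj_xT {i r : ℕ} (hi : i < D.rank) (hr : r < D.nroots) (t : F) :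
    hG.nG (hG.simple_lt hi) 1 * hG.xT r t * (hG.nG (hG.simple_lt hi) 1)⁻¹ = hG.xT (T.refl i r) (((T.eps i r : ℤ) : F) * t) := by
  have hw := hG.refl_lt' hi hr
  rw [hG.xT_of_lt hw, hG.xT_of_lt hr]
  apply Subtype.ext
  show ((hG.nG (hG.simple_lt hi) 1 : ↥(D.group F)) : GL D.Idx F) * hG.xU hr t *
    ((hG.nG (hG.simple_lt hi) 1 : ↥(D.group F)) : GL D.Idx F)⁻¹ = hG.xU hw _
  rw [hG.nG_coe, hG.nR_simple hi, hG.nU_conj hi hr]

/-- The signs. -/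
theorem aut_root_sign (π : Equiv.Perm (Fin D.rank)) (φ : ↥(D.group F) ≃* ↥(D.group F))
    (h1 : ∀ (i : Fin D.rank) (t : F), φ (hG.xT (D.simple i) t) = hG.xT (D.simple (π i)) t)
    (h2 : ∀ (i : Fin D.rank) (t : F), φ (hG.xT (D.neg (D.simple i)) t) = hG.xT (D.neg (D.simple (π i))) t)
    (ρ : ℕ → ℕ) (hρs : ∀ i : Fin D.rank, ρ (D.simple i) = D.simple (π i))
    (hρ : ∀ (i : Fin D.rank) (r : ℕ), r < D.nroots → ρ r < D.nroots ∧ ρ (T.refl i r) = T.refl (π i) (ρ r)) :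
    ∀ r, r < D.nroots → ∃ ε : F, (ε = 1 ∨ ε = -1) ∧ ∀ t, φ (hG.xT r t) = hG.xT (ρ r) (ε * t) := by
  intro r hr
  refine hG.root_induction_simple (fun r => r < D.nroots → ∃ ε : F, (ε = 1 ∨ ε = -1) ∧ ∀ t, φ (hG.xT r t) = hG.xT (ρ r) (ε * t))
    ?_ ?_ r (hG.lt_n hr) hr
  · intro i hi _
    have hi' := hG.l_lt hi
    rw [hG.correct.simple_eq i hi']
    refine ⟨1, Or.inl rfl, fun t => ?_⟩
    rw [one_mul, h1 ⟨i, hi'⟩ t, hρs ⟨i, hi'⟩]
  · intro i r hi hr' ih _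
    have hi' := hG.l_lt hi
    have hrn := hG.n_lt hr'
    obtain ⟨ε, hε, he⟩ := ih hrn
    obtain ⟨hρr, hρw⟩ := hρ ⟨i, hi'⟩ r hrn
    have hn : φ (hG.nG (hG.simple_lt hi') 1) = hG.nG (hG.simple_lt (π ⟨i, hi'⟩).2) 1 := by
      unfold nG
      rw [map_mul, map_mul, ← hG.xT_of_lt, ← hG.xT_of_lt, h1 ⟨i, hi'⟩, h2 ⟨i, hi'⟩]
      simp only [hG.xT_of_lt (hG.simple_lt (π ⟨i, hi'⟩).2), hG.xT_of_lt (hG.neg_lt (hG.simple_lt (π ⟨i, hi'⟩).2)), inv_one]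
    have hcases := hG.eps_cases (F := F) hi' hrn
    have hcases' := hG.eps_cases (F := F) (π ⟨i, hi'⟩).2 hρr
    refine ⟨((T.eps (π ⟨i, hi'⟩) (ρ r) : ℤ) : F) * (ε * ((T.eps i r : ℤ) : F)⁻¹), ?_, fun t => ?_⟩
    · rcases hcases with e1 | e1 <;> rcases hcases' with e2 | e2 <;> rcases hε with e3 | e3 <;> rw [e1, e2, e3] <;> norm_num
    · have he0 : ((T.eps i r : ℤ) : F) ≠ 0 := hG.eps_ne hi' hrn
      have e1 := hG.nG_conj_xT hi' hrn (((T.eps i r : ℤ) : F)⁻¹ * t)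
      rw [← mul_assoc, mul_inv_cancel₀ he0, one_mul] at e1
      rw [← e1, map_mul, map_mul, map_inv, hn, he, hG.nG_conj_xT (π ⟨i, hi'⟩).2 hρr, hρw]
      congr 1
      ring

end Tbl.Good2

end

end Cfsg.Agent.Lib.Chev
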